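import Cfsg.Agent.Lib.Conway.X11.HSUse
import Cfsg.Agent.Lib.Conway.TabSimple

/-!
# The Higman–Sims group is simple
-/

set_option autoImplicit false

namespace Cfsg.Agent.Lib.Conway.HSU

open Cfsg Cfsg.Spor Cfsg.Agent.Lib.Compute Cfsg.Agent.Lib.Golay MulAction
open Cfsg.Agent.Lib.KnownSimple Cfsg.Agent.Lib.KnownSimple.PE Cfsg.Agent.Lib.KnownSimple.Leech
open Cfsg.Agent.Lib.Conway Cfsg.Agent.Lib.Conway.TabSimple
open Cfsg.Agent.Lib.KnownSimple.Leech.HS (hh L0 L1 top lev1 tab cK ciK pq)

/-- The base point. -/
def x0 : Fin 100 := ⟨99, by norm_num⟩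

theorem stabData : StabM22 R x0 where
  hphi π hπ := HS.phi_mem_G hπ
  hfix π hπ := by
    have h := U_eq
    rw [show (⟨99, by norm_num⟩ : Fin 100) = x0 from rfl] at h
    rw [h]
    exact (phi_fix hπ).2.1
  hstab g h := by
    have h2 := U_eq
    rw [show (⟨99, by norm_num⟩ : Fin 100) = x0 from rfl] at h2
    rw [h2] at h
    exact stab_M22 (R.hG g.2) g.2.1.2 h g.2.2

theorem card_range : Nat.card ↥R.rep.range = 44352000 := HS.card_H

theorem trans_vec (i j : Fin 100) : ∃ g : ↥Spor.HS, g.1 (R.vec i) = R.vec j := by
  obtain ⟨g, _, e⟩ := TabUse.trans_of_level R (le_refl _) top.2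
    ((allBelow_iff _ _).1 full0 i i.isLt) ((allBelow_iff _ _).1 full0 j j.isLt)
  exact ⟨g, e⟩

instance nt : Nontrivial ↥(stabilizer ↥R.rep.range x0) :=
  nontrivial_stab R trans_vec x0 (by rw [card_range]; norm_num)

/-- The classes. -/
noncomputable def cls (i : Fin 100) : Fin 3 :=
  if i.val = 99 then 0 else if P8 i = true then 1 else 2

theorem P8_99 : P8 99 = false := by decide +kernel

theorem cnt99 : countBelow (fun i => Nat.beq i 99) 100 = 1 := by decide +kernel

theorem cls_hc (k : Fin 3) : {y | cls y = k}.ncard = ![1, 22, 77] k := by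
  fin_cases k
  · have : {y : Fin 100 | cls y = 0} = {y : Fin 100 | (fun i => Nat.beq i 99) y.val = true} := by
      ext y
      simp only [Set.mem_ofPred_eq, cls, Nat.beq_eq_true_eq]
      split_ifs with h1 h2
      · simp [h1]
      · simp [h1]
      · simp [h1]
    show {y : Fin 100 | cls y = 0}.ncard = 1
    rw [this]
    exact (ncard_fin R _).trans cnt99
  · have : {y : Fin 100 | cls y = 1} = {y : Fin 100 | P8 y.val = true} := by
      ext y
      simp only [Set.mem_ofPred_eq, cls]
      split_ifs with h1 h2
      · simp only [h1, P8_99]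
        simp
      · simp [h2]
      · simp [h2]
    show {y : Fin 100 | cls y = 1}.ncard = 22
    rw [this, ncard_fin R, cnt8]
  · have : {y : Fin 100 | cls y = 2} = {y : Fin 100 | P77 y.val = true} := by
      ext y
      simp only [Set.mem_ofPred_eq, cls, P77, P8, Bool.and_eq_true, Bool.not_eq_true', Nat.beq_eq_true_eq]
      by_cases h1 : y.val = 99
      · simp [h1]
      · have hb : Nat.beq y.val 99 = false := by
          cases h : Nat.beq y.val 99
          · rfl
          · exact absurd (Nat.eq_of_beq_eq_true h) h1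
        by_cases h2 : dotZ tab y.val 99 = 8 <;> simp [h1, h2, hb]
    show {y : Fin 100 | cls y = 2}.ncard = 77
    rw [this, ncard_fin R, cnt77]

theorem cls_x0 : cls x0 = 0 := rfl

theorem cls_hx (y : Fin 100) (h : cls y = cls x0) : y = x0 := by
  rw [cls_x0] at h
  unfold cls at h
  split_ifs at h with h1 h2
  · exact Fin.ext h1
  · exact absurd h (by decide)
  · exact absurd h (by decide)

theorem cls_trans (y y' : Fin 100) (h : cls y = cls y') :
    ∃ g : ↥Spor.HS, g.1 (R.vec x0) = R.vec x0 ∧ g.1 (R.vec y) = R.vec y' := by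
  have hU : R.vec x0 = leechU := U_eq
  have key : ∃ g : ↥Spor.HS, R.rep g ∈ hh.K 11 ∧ g.1 (R.vec y) = R.vec y' := by
    unfold cls at h
    by_cases h1 : y.val = 99
    · by_cases h2 : y'.val = 99
      · have : y = y' := Fin.ext (h1.trans h2.symm)
        subst this
        exact ⟨1, by rw [map_one]; exact one_mem _, rfl⟩
      · rw [if_pos h1, if_neg h2] at h
        split_ifs at h <;> exact absurd h (by decide)
    · by_cases h2 : y'.val = 99
      · rw [if_neg h1, if_pos h2] at h
        split_ifs at h <;> exact absurd h (by decide)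
      · rw [if_neg h1, if_neg h2] at h
        by_cases h3 : P8 y = true
        · by_cases h4 : P8 y' = true
          · have d1 := (allBelow_iff _ _).1 chk8 y y.isLt
            have d2 := (allBelow_iff _ _).1 chk8 y' y'.isLt
            rw [h3, bcond_true] at d1
            rw [h4, bcond_true] at d2
            exact TabUse.trans_of_treeOK R K_le gensB treeB d1 d2
          · rw [if_pos h3, if_neg h4] at h
            exact absurd h (by decide)
        · by_cases h4 : P8 y' = true
          · rw [if_neg h3, if_pos h4] at h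
            exact absurd h (by decide)
          · have d1 := (allBelow_iff _ _).1 chk77 y y.isLt
            have d2 := (allBelow_iff _ _).1 chk77 y' y'.isLt
            have e1 : P77 y = true := by
              unfold P77
              rw [Bool.and_eq_true, Bool.not_eq_true', Bool.not_eq_true']
              refine ⟨?_, by simpa [P8] using h3⟩
              rw [Bool.eq_false_iff]
              exact fun h5 => h1 (Nat.eq_of_beq_eq_true h5)
            have e2 : P77 y' = true := by
              unfold P77
              rw [Bool.and_eq_true, Bool.not_eq_true', Bool.not_eq_true']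
              refine ⟨?_, by simpa [P8] using h4⟩
              rw [Bool.eq_false_iff]
              exact fun h5 => h2 (Nat.eq_of_beq_eq_true h5)
            rw [e1, bcond_true] at d1
            rw [e2, bcond_true] at d2
            exact TabUse.trans_of_level R K_le lev1 d1 d2
  obtain ⟨g, hg, e⟩ := key
  exact ⟨g, by rw [hU]; exact fix_U hg, e⟩

theorem prim : IsPreprimitive ↥R.rep.range (Fin 100) :=
  prim_of_classes R trans_vec x0 cls cls_hx cls_trans ![1, 22, 77] cls_hc (by
    rw [cls_x0]
    decide +kernel)

/-- The group of permutations is simple. -/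
theorem simple_range : IsSimpleGroup ↥R.rep.range := by
  have := prim
  have hnt : Nontrivial ↥R.rep.range := by
    rw [← Finite.one_lt_card_iff_nontrivial, card_range]
    norm_num
  refine Cfsg.Agent.Lib.Compute.isSimpleGroup_of_prim_simple_stabilizer (G := ↥R.rep.range) (X := Fin 100) x0
    (simple_stab stabData) (p := 5) (a := 2) (m := 4) (by norm_num) (by rw [Nat.card_fin]; norm_num)
    (by norm_num) (by norm_num) (by norm_num) ?_
  intro d hd hd2
  have hd3 : d ≤ 4 := Nat.le_of_dvd (by norm_num) hd
  interval_cases d <;> omega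

theorem rep_injective : Function.Injective R.rep := rep_inj stabData

/-- The group is simple. -/
theorem simple_HS : IsSimpleGroup ↥Spor.HS := by
  have := simple_range
  exact (repIso rep_injective).isSimpleGroup

theorem card_HS : Nat.card ↥Spor.HS = 44352000 :=
  (Nat.card_congr (repIso rep_injective).toEquiv).trans card_range

/-- The main statement. -/
theorem S0405_aux (v w : LL) (hv : sqNorm v.1 = 48) (hw : sqNorm w.1 = 48) (hvw : dotInt v.1 w.1 = -32) :
    IsHS ↥(MulAction.stabilizer ↥Co0 v ⊓ MulAction.stabilizer ↥Co0 w) := by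
  obtain ⟨k, hk, e1, e2⟩ := orb_hs v w hv hw hvw
  have hiso : ↥(MulAction.stabilizer ↥Co0 v ⊓ MulAction.stabilizer ↥Co0 w) ≃* ↥Spor.HS := by
    refine conjIso (B := Spor.HS) (fun _ hg => hg.1.1) hk fun a => ?_
    have h1 := conj_fix_iff (g := a.1) e1
    have h2 := conj_fix_iff (g := a.1) e2
    rw [Subgroup.mem_inf, mem_stabilizer_iff, mem_stabilizer_iff]
    have mem : k * a.1 * k⁻¹ ∈ Co0 := mul_mem (mul_mem hk a.2) (inv_mem hk)
    constructor
    · rintro ⟨h3, h4⟩
      have h5 : (k * a.1 * k⁻¹) v0 = v0 := h1.2 h3
      have h6 : (k * a.1 * k⁻¹) w0 = w0 := h2.2 h4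
      have h7 : (k * a.1 * k⁻¹) leechV = leechV := by
        rw [map_neg_Co0 mem] at h5
        exact neg_injective h5
      refine ⟨⟨mem, h7⟩, ?_⟩
      rw [map_add_Co0 mem, h7] at h6
      exact add_right_cancel h6
    · rintro ⟨⟨h3, h4⟩, h5⟩
      have h4' : (k * a.1 * k⁻¹) leechV = leechV := h4
      have h5' : (k * a.1 * k⁻¹) leechU' = leechU' := h5
      constructor
      · apply h1.1
        rw [map_neg_Co0 mem, h4']
      · apply h2.1
        rw [map_add_Co0 mem, h4', h5']
  constructor
  · have := simple_HS
    exact hiso.isSimpleGroup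
  · exact (Nat.card_congr hiso.toEquiv).trans card_HS

end Cfsg.Agent.Lib.Conway.HSU
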