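import Cfsg.Agent.Lib.Conway.X11.Orbits
import Cfsg.Agent.Lib.Conway.X11.HSSimple

/-!
# The third Conway group is simple
-/

set_option autoImplicit false

namespace Cfsg.Agent.Lib.Conway.X11

open Cfsg Cfsg.Spor Cfsg.Agent.Lib.Compute Cfsg.Agent.Lib.Golay MulAction
open Cfsg.Agent.Lib.KnownSimple Cfsg.Agent.Lib.KnownSimple.PE Cfsg.Agent.Lib.KnownSimple.Leech
open Cfsg.Agent.Lib.Conway Cfsg.Agent.Lib.Conway.TabSimple

/-- The base point. -/
def x0 : Fin N := ⟨11177, by norm_num⟩

theorem vec_x0 : R.vec x0 = leechU' := U'_eq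

/-- The smaller group in the group. -/
def incl : ↥Spor.HS →* ↥Spor.Co3 := Subgroup.inclusion (fun _ hg => hg.1)

/-- The smaller group in the stabiliser. -/
noncomputable def th : ↥Spor.HS →* ↥(stabilizer ↥R.rep.range x0) :=
  MonoidHom.codRestrict (R.rep.rangeRestrict.comp incl) (stabilizer ↥R.rep.range x0) (fun g => by
    rw [mem_stabilizer_iff]
    refine rep_apply_eq R ?_
    rw [vec_x0]
    exact g.2.2)

theorem mem_HS {g : ↥Spor.Co3} (h : R.rep g x0 = x0) : g.1 ∈ Spor.HS := by
  refine ⟨g.2, ?_⟩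
  have h2 := R.rep_spec g x0
  rw [h, vec_x0] at h2
  exact h2

theorem th_surj : Function.Surjective th := by
  rintro ⟨⟨_, g, rfl⟩, hfix⟩
  rw [mem_stabilizer_iff] at hfix
  refine ⟨⟨g.1, mem_HS hfix⟩, ?_⟩
  apply Subtype.ext
  apply Subtype.ext
  rfl

theorem gU_move : pq tU 0 ≠ 0 := by decide +kernel

/-- The stabiliser is not trivial. -/
instance nt : Nontrivial ↥(stabilizer ↥R.rep.range x0) := by
  refine ⟨th HS.gU, 1, fun h => ?_⟩
  have h1 : R.rep (incl HS.gU) = 1 := congrArg (fun z : ↥(stabilizer ↥R.rep.range x0) => (z.1 : Equiv.Perm (Fin N))) h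
  have h2 : incl HS.gU = Cfsg.Agent.Lib.KnownSimple.Leech.Co3.g1 := Subtype.ext rfl
  rw [h2] at h1
  have h3 : pq tU (0 : Fin N).val = (R.rep Cfsg.Agent.Lib.KnownSimple.Leech.Co3.g1 (0 : Fin N)).val := code1 (0 : Fin N)
  rw [h1] at h3
  exact gU_move h3

theorem simple_stab : IsSimpleGroup ↥(stabilizer ↥R.rep.range x0) := by
  have := HSU.simple_HS
  exact IsSimpleGroup.isSimpleGroup_of_surjective th th_surj

theorem th_inj : Function.Injective th := by
  have := HSU.simple_HS
  rw [← MonoidHom.ker_eq_bot_iff]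
  rcases IsSimpleGroup.eq_bot_or_eq_top_of_normal th.ker (MonoidHom.normal_ker _) with h | h
  · exact h
  · exfalso
    obtain ⟨a, c, hne⟩ := exists_pair_ne ↥(stabilizer ↥R.rep.range x0)
    obtain ⟨x, rfl⟩ := th_surj a
    obtain ⟨y, rfl⟩ := th_surj c
    apply hne
    have h1 : x ∈ th.ker := by rw [h]; trivial
    have h2 : y ∈ th.ker := by rw [h]; trivial
    rw [MonoidHom.mem_ker] at h1 h2
    rw [h1, h2]

theorem rep_injective : Function.Injective R.rep := by
  rw [← MonoidHom.ker_eq_bot_iff, eq_bot_iff]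
  intro g hg
  rw [MonoidHom.mem_ker] at hg
  rw [Subgroup.mem_bot]
  have h1 : R.rep g x0 = x0 := by
    rw [hg]
    rfl
  have h2 := mem_HS h1
  have h4 : th ⟨g.1, h2⟩ = 1 := by
    apply Subtype.ext
    apply Subtype.ext
    show R.rep g = 1
    exact hg
  have h5 : (⟨g.1, h2⟩ : ↥Spor.HS) = 1 := th_inj (by rw [h4, map_one])
  have h6 : g.1 = 1 := congrArg (fun z : ↥Spor.HS => z.1) h5
  exact Subtype.ext h6

/-- The stabiliser is the smaller group. -/
noncomputable def thIso : ↥Spor.HS ≃* ↥(stabilizer ↥R.rep.range x0) := MulEquiv.ofBijective th ⟨th_inj, th_surj⟩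

theorem trans_vec (i j : Fin N) : ∃ g : ↥Spor.Co3, g.1 (R.vec i) = R.vec j := trans_tab i j

theorem card_range : Nat.card ↥R.rep.range = 495766656000 := by
  have := pretrans R trans_vec
  have h1 := (stabilizer ↥R.rep.range x0).card_mul_index
  rw [index_stabilizer, orbit_eq_univ, Set.ncard_univ, Nat.card_fin, ← Nat.card_congr thIso.toEquiv, HSU.card_HS] at h1
  rw [← h1]
  show 44352000 * 11178 = 495766656000
  norm_num

/-- The classes. -/
noncomputable def cls (i : Fin N) : Fin 5 :=
  if i.val = 11177 then 0 else if Pd 16 i = true then 1 else if Pd 8 i = true then 2 else if Pd 0 i = true then 3 else 4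

theorem Pd_uniq {d d' : ℤ} {i : ℕ} (h : Pd d i = true) (h' : Pd d' i = true) : d = d' :=
  (of_decide_eq_true h).symm.trans (of_decide_eq_true h')

theorem Pd_self (d : ℤ) (hd : d ≠ 32) : Pd d 11177 = false := by
  rw [Bool.eq_false_iff]
  intro h
  have h1 : Pd 32 11177 = true := by decide +kernel
  exact hd (Pd_uniq h h1)

theorem cases_i (i : Fin N) : i.val = 11177 ∨ Pd 16 i = true ∨ Pd 8 i = true ∨ Pd 0 i = true ∨ Pd (-8) i = true := by
  have h := (allBelow_iff _ _).1 chkAll i i.isLt
  simp only [Bool.or_eq_true] at h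
  rcases h with h | h
  · exact Or.inl (Nat.eq_of_beq_eq_true h)
  · exact Or.inr h

theorem cnt99 : countBelow (fun i => Nat.beq i 11177) N = 1 := by decide +kernel

theorem cls_d (y : Fin N) (h : y.val ≠ 11177) : ∃ d : ℤ, (d = 16 ∨ d = 8 ∨ d = 0 ∨ d = -8) ∧ Pd d y = true ∧
    (cls y = if d = 16 then 1 else if d = 8 then 2 else if d = 0 then 3 else 4) := by
  rcases cases_i y with h1 | h1 | h1 | h1 | h1
  · exact absurd h1 h
  · refine ⟨16, Or.inl rfl, h1, ?_⟩
    unfold cls
    rw [if_neg h, if_pos h1]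
    rfl
  · refine ⟨8, Or.inr (Or.inl rfl), h1, ?_⟩
    have h2 : ¬ Pd 16 y = true := fun h3 => absurd (Pd_uniq h3 h1) (by norm_num)
    unfold cls
    rw [if_neg h, if_neg h2, if_pos h1]
    rfl
  · refine ⟨0, Or.inr (Or.inr (Or.inl rfl)), h1, ?_⟩
    have h2 : ¬ Pd 16 y = true := fun h3 => absurd (Pd_uniq h3 h1) (by norm_num)
    have h3 : ¬ Pd 8 y = true := fun h3 => absurd (Pd_uniq h3 h1) (by norm_num)
    unfold cls
    rw [if_neg h, if_neg h2, if_neg h3, if_pos h1]
    rfl
  · refine ⟨-8, Or.inr (Or.inr (Or.inr rfl)), h1, ?_⟩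
    have h2 : ¬ Pd 16 y = true := fun h3 => absurd (Pd_uniq h3 h1) (by norm_num)
    have h3 : ¬ Pd 8 y = true := fun h3 => absurd (Pd_uniq h3 h1) (by norm_num)
    have h4 : ¬ Pd 0 y = true := fun h3 => absurd (Pd_uniq h3 h1) (by norm_num)
    unfold cls
    rw [if_neg h, if_neg h2, if_neg h3, if_neg h4]
    rfl

theorem cls_iff (y : Fin N) (k : Fin 5) (d : ℤ) (hk : k ≠ 0) (hd : d ≠ 32)
    (hkd : (if d = 16 then (1 : Fin 5) else if d = 8 then 2 else if d = 0 then 3 else 4) = k)
    (hdd : d = 16 ∨ d = 8 ∨ d = 0 ∨ d = -8) : cls y = k ↔ Pd d y = true := by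
  by_cases h : y.val = 11177
  · have e0 : cls y = 0 := by
      unfold cls
      rw [if_pos h]
    rw [e0, h, Pd_self d hd]
    simp [hk.symm]
  · obtain ⟨d', hd', hp, e⟩ := cls_d y h
    rw [e, ← hkd]
    constructor
    · intro h2
      have : d' = d := by
        rcases hd' with rfl | rfl | rfl | rfl <;> rcases hdd with rfl | rfl | rfl | rfl <;>
          first | rfl | (exfalso; revert h2; norm_num; done) | (exfalso; revert h2; decide)
      rw [← this]
      exact hp
    · intro h2
      rw [Pd_uniq hp h2]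

theorem cls_hc (k : Fin 5) : {y | cls y = k}.ncard = ![1, 1100, 5600, 4125, 352] k := by
  fin_cases k
  · have : {y : Fin N | cls y = 0} = {y : Fin N | (fun i => Nat.beq i 11177) y.val = true} := by
      ext y
      simp only [Set.mem_ofPred_eq]
      constructor
      · intro h
        by_cases h1 : y.val = 11177
        · rw [h1]
          rfl
        · obtain ⟨d, _, _, e⟩ := cls_d y h1
          rw [e] at h
          revert h
          split_ifs <;> (intro h0; exact absurd h0 (by decide))
      · intro h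
        have h1 : y.val = 11177 := Nat.eq_of_beq_eq_true h
        unfold cls
        rw [if_pos h1]
    show {y : Fin N | cls y = 0}.ncard = 1
    rw [this]
    exact (ncard_fin R _).trans cnt99
  · show {y : Fin N | cls y = 1}.ncard = 1100
    have : {y : Fin N | cls y = 1} = {y : Fin N | Pd 16 y.val = true} := by
      ext y
      exact cls_iff y 1 16 (by decide) (by norm_num) (by norm_num) (Or.inl rfl)
    rw [this, ncard_fin R, cnt0]
  · show {y : Fin N | cls y = 2}.ncard = 5600
    have : {y : Fin N | cls y = 2} = {y : Fin N | Pd 8 y.val = true} := by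
      ext y
      exact cls_iff y 2 8 (by decide) (by norm_num) (by norm_num) (Or.inr (Or.inl rfl))
    rw [this, ncard_fin R, cnt1]
  · show {y : Fin N | cls y = 3}.ncard = 4125
    have : {y : Fin N | cls y = 3} = {y : Fin N | Pd 0 y.val = true} := by
      ext y
      exact cls_iff y 3 0 (by decide) (by norm_num) (by norm_num) (Or.inr (Or.inr (Or.inl rfl)))
    rw [this, ncard_fin R, cnt2]
  · show {y : Fin N | cls y = 4}.ncard = 352
    have : {y : Fin N | cls y = 4} = {y : Fin N | Pd (-8) y.val = true} := by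
      ext y
      exact cls_iff y 4 (-8) (by decide) (by norm_num) (by norm_num) (Or.inr (Or.inr (Or.inr rfl)))
    rw [this, ncard_fin R, cnt3]

theorem cls_x0 : cls x0 = 0 := rfl

theorem cls_hx (y : Fin N) (h : cls y = cls x0) : y = x0 := by
  rw [cls_x0] at h
  by_cases h1 : y.val = 11177
  · exact Fin.ext h1
  · obtain ⟨d, _, _, e⟩ := cls_d y h1
    rw [e] at h
    exfalso
    revert h
    split_ifs <;> decide

theorem cls_trans (y y' : Fin N) (h : cls y = cls y') :
    ∃ g : ↥Spor.Co3, g.1 (R.vec x0) = R.vec x0 ∧ g.1 (R.vec y) = R.vec y' := by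
  have hmem : ∀ i : Fin N, R.vec i ∈ XD leechV (-16) := fun i => by
    rw [XD_base]
    exact ⟨i, rfl⟩
  have hpd : ∀ (i : Fin N) (d : ℤ), Pd d i = true → dotInt leechU'.1 (R.vec i).1 = d := fun i d hp => (Pd_iff d i).1 hp
  have key : ∃ g : ↥Spor.HS, g.1 (R.vec y) = R.vec y' := by
    by_cases h1 : y.val = 11177
    · by_cases h2 : y'.val = 11177
      · have : y = y' := Fin.ext (h1.trans h2.symm)
        subst this
        exact ⟨1, rfl⟩
      · obtain ⟨d, hd, _, e⟩ := cls_d y' h2
        have e0 : cls y = 0 := by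
          unfold cls
          rw [if_pos h1]
        rw [e0, e] at h
        exfalso
        revert h
        split_ifs <;> decide
    · by_cases h2 : y'.val = 11177
      · obtain ⟨d, hd, _, e⟩ := cls_d y h1
        have e0 : cls y' = 0 := by
          unfold cls
          rw [if_pos h2]
        rw [e0, e] at h
        exfalso
        revert h
        split_ifs <;> decide
      · obtain ⟨d, hd, hp, e⟩ := cls_d y h1
        obtain ⟨d', hd', hp', e'⟩ := cls_d y' h2
        have hdd : d = d' := by
          rw [e, e'] at h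
          rcases hd with rfl | rfl | rfl | rfl <;> rcases hd' with rfl | rfl | rfl | rfl <;>
            first | rfl | (exfalso; revert h; norm_num; done) | (exfalso; revert h; decide)
        subst hdd
        rcases hd with rfl | rfl | rfl | rfl
        · exact orbit_trans chk0 tree0 (hmem y) (hmem y') (hpd _ _ hp) (hpd _ _ hp')
        · exact orbit_trans chk1 tree1 (hmem y) (hmem y') (hpd _ _ hp) (hpd _ _ hp')
        · exact orbit_trans chk2 tree2 (hmem y) (hmem y') (hpd _ _ hp) (hpd _ _ hp')
        · exact orbit_trans chk3 tree3 (hmem y) (hmem y') (hpd _ _ hp) (hpd _ _ hp')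
  obtain ⟨g, e⟩ := key
  refine ⟨incl g, ?_, e⟩
  rw [vec_x0]
  exact g.2.2

theorem prim : IsPreprimitive ↥R.rep.range (Fin N) :=
  prim_of_classes R trans_vec x0 cls cls_hx cls_trans ![1, 1100, 5600, 4125, 352] cls_hc (by
    rw [cls_x0]
    decide +kernel)

/-- The group of permutations is simple. -/
theorem simple_range : IsSimpleGroup ↥R.rep.range := by
  have := prim
  have hnt : Nontrivial ↥R.rep.range := by
    rw [← Finite.one_lt_card_iff_nontrivial, card_range]
    norm_num
  have := simple_stab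
  refine SimpleKit.simple_of_no_regular (G := ↥R.rep.range) (X := Fin N) x0 simple_stab fun M hM _ hc => ?_
  exact SimpleKit.no_regular_two_odd (X := Fin N) (m := 5589) (by decide) (by norm_num) (by rw [Nat.card_fin]) M hM hc

/-- The group is simple. -/
theorem simple_Co3 : IsSimpleGroup ↥Spor.Co3 := by
  have := simple_range
  exact (repIso rep_injective).isSimpleGroup

theorem card_Co3 : Nat.card ↥Spor.Co3 = 495766656000 :=
  (Nat.card_congr (repIso rep_injective).toEquiv).trans card_range

/-- The main statement. -/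
theorem S0403_aux (v : LL) (hv : sqNorm v.1 = 48) : IsCo3 ↥(MulAction.stabilizer ↥Co0 v) := by
  obtain ⟨k, hk, e⟩ := orb48 v hv
  have hiso : ↥(MulAction.stabilizer ↥Co0 v) ≃* ↥Spor.Co3 := by
    refine conjIso (B := Spor.Co3) (fun _ hg => hg.1) hk fun a => ?_
    have h1 := conj_fix_iff (g := a.1) e
    rw [mem_stabilizer_iff]
    have mem : k * a.1 * k⁻¹ ∈ Co0 := mul_mem (mul_mem hk a.2) (inv_mem hk)
    constructor
    · intro h3
      have h5 : (k * a.1 * k⁻¹) (-leechV) = -leechV := h1.2 h3
      rw [map_neg_Co0 mem] at h5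
      exact ⟨mem, neg_injective h5⟩
    · rintro ⟨_, h4⟩
      have h4' : (k * a.1 * k⁻¹) leechV = leechV := h4
      apply h1.1
      rw [map_neg_Co0 mem, h4']
  constructor
  · have := simple_Co3
    exact hiso.isSimpleGroup
  · exact (Nat.card_congr hiso.toEquiv).trans card_Co3

end Cfsg.Agent.Lib.Conway.X11
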