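import Cfsg.Agent.Lib.Conway.X11.CodesH

/-!
# The third Conway group acting on 11178 vectors of the lattice: the generators
-/

set_option autoImplicit false
set_option maxHeartbeats 0

namespace Cfsg.Agent.Lib.Conway.X11

open Cfsg Cfsg.Spor Cfsg.Agent.Lib.Compute Cfsg.Agent.Lib.Golay
open Cfsg.Agent.Lib.KnownSimple Cfsg.Agent.Lib.KnownSimple.PE Cfsg.Agent.Lib.KnownSimple.Leech
open Cfsg.Agent.Lib.Conway

theorem hW0 : chunk (gP R (pc MathieuData.pW) (pq tW)) 512 0 = true := by decide +kernel
theorem hW1 : chunk (gP R (pc MathieuData.pW) (pq tW)) 512 1 = true := by decide +kernel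
theorem hW2 : chunk (gP R (pc MathieuData.pW) (pq tW)) 512 2 = true := by decide +kernel
theorem hW3 : chunk (gP R (pc MathieuData.pW) (pq tW)) 512 3 = true := by decide +kernel
theorem hW4 : chunk (gP R (pc MathieuData.pW) (pq tW)) 512 4 = true := by decide +kernel
theorem hW5 : chunk (gP R (pc MathieuData.pW) (pq tW)) 512 5 = true := by decide +kernel
theorem hW6 : chunk (gP R (pc MathieuData.pW) (pq tW)) 512 6 = true := by decide +kernel
theorem hW7 : chunk (gP R (pc MathieuData.pW) (pq tW)) 512 7 = true := by decide +kernel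
theorem hW8 : chunk (gP R (pc MathieuData.pW) (pq tW)) 512 8 = true := by decide +kernel
theorem hW9 : chunk (gP R (pc MathieuData.pW) (pq tW)) 512 9 = true := by decide +kernel
theorem hW10 : chunk (gP R (pc MathieuData.pW) (pq tW)) 512 10 = true := by decide +kernel
theorem hW11 : chunk (gP R (pc MathieuData.pW) (pq tW)) 512 11 = true := by decide +kernel
theorem hW12 : chunk (gP R (pc MathieuData.pW) (pq tW)) 512 12 = true := by decide +kernel
theorem hW13 : chunk (gP R (pc MathieuData.pW) (pq tW)) 512 13 = true := by decide +kernel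
theorem hW14 : chunk (gP R (pc MathieuData.pW) (pq tW)) 512 14 = true := by decide +kernel
theorem hW15 : chunk (gP R (pc MathieuData.pW) (pq tW)) 512 15 = true := by decide +kernel
theorem hW16 : chunk (gP R (pc MathieuData.pW) (pq tW)) 512 16 = true := by decide +kernel
theorem hW17 : chunk (gP R (pc MathieuData.pW) (pq tW)) 512 17 = true := by decide +kernel
theorem hW18 : chunk (gP R (pc MathieuData.pW) (pq tW)) 512 18 = true := by decide +kernel
theorem hW19 : chunk (gP R (pc MathieuData.pW) (pq tW)) 512 19 = true := by decide +kernel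
theorem hW20 : chunk (gP R (pc MathieuData.pW) (pq tW)) 512 20 = true := by decide +kernel
theorem hW21 : chunk (gP R (pc MathieuData.pW) (pq tW)) 512 21 = true := by decide +kernel
theorem code0 : E.IsCode (R.rep Cfsg.Agent.Lib.KnownSimple.Leech.Co3.g0) (pq tW) :=
  R.code_of_P (g := Cfsg.Agent.Lib.KnownSimple.Leech.Co3.g0) (π := ⟨_, MathieuFacts.mem_W⟩) rfl MathieuFacts.code_W
    (chkP_of_chunks R (s := 512) (m := 22) (by decide) (chunks22 hW0 hW1 hW2 hW3 hW4 hW5 hW6 hW7 hW8 hW9 hW10 hW11 hW12 hW13 hW14 hW15 hW16 hW17 hW18 hW19 hW20 hW21))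

end Cfsg.Agent.Lib.Conway.X11
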