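import Cfsg.Agent.Lib.Conway.X11.CodesH

/-!
# The third Conway group acting on 11178 vectors of the lattice: the generators
-/

set_option autoImplicit false
set_option maxHeartbeats 0

namespace Cfsg.Agent.Lib.Conway.X11

open Cfsg Cfsg.Spor Cfsg.Agent.Lib.Compute Cfsg.Agent.Lib.Golay
open Cfsg.Agent.Lib.KnownSimple Cfsg.Agent.Lib.KnownSimple.PE Cfsg.Agent.Lib.KnownSimple.Leech
open Cfsg.Agent.Lib.Conway

theorem hU0 : chunk (gP R (pc MathieuData.pU) (pq tU)) 512 0 = true := by decide +kernel
theorem hU1 : chunk (gP R (pc MathieuData.pU) (pq tU)) 512 1 = true := by decide +kernel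
theorem hU2 : chunk (gP R (pc MathieuData.pU) (pq tU)) 512 2 = true := by decide +kernel
theorem hU3 : chunk (gP R (pc MathieuData.pU) (pq tU)) 512 3 = true := by decide +kernel
theorem hU4 : chunk (gP R (pc MathieuData.pU) (pq tU)) 512 4 = true := by decide +kernel
theorem hU5 : chunk (gP R (pc MathieuData.pU) (pq tU)) 512 5 = true := by decide +kernel
theorem hU6 : chunk (gP R (pc MathieuData.pU) (pq tU)) 512 6 = true := by decide +kernel
theorem hU7 : chunk (gP R (pc MathieuData.pU) (pq tU)) 512 7 = true := by decide +kernel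
theorem hU8 : chunk (gP R (pc MathieuData.pU) (pq tU)) 512 8 = true := by decide +kernel
theorem hU9 : chunk (gP R (pc MathieuData.pU) (pq tU)) 512 9 = true := by decide +kernel
theorem hU10 : chunk (gP R (pc MathieuData.pU) (pq tU)) 512 10 = true := by decide +kernel
theorem hU11 : chunk (gP R (pc MathieuData.pU) (pq tU)) 512 11 = true := by decide +kernel
theorem hU12 : chunk (gP R (pc MathieuData.pU) (pq tU)) 512 12 = true := by decide +kernel
theorem hU13 : chunk (gP R (pc MathieuData.pU) (pq tU)) 512 13 = true := by decide +kernel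
theorem hU14 : chunk (gP R (pc MathieuData.pU) (pq tU)) 512 14 = true := by decide +kernel
theorem hU15 : chunk (gP R (pc MathieuData.pU) (pq tU)) 512 15 = true := by decide +kernel
theorem hU16 : chunk (gP R (pc MathieuData.pU) (pq tU)) 512 16 = true := by decide +kernel
theorem hU17 : chunk (gP R (pc MathieuData.pU) (pq tU)) 512 17 = true := by decide +kernel
theorem hU18 : chunk (gP R (pc MathieuData.pU) (pq tU)) 512 18 = true := by decide +kernel
theorem hU19 : chunk (gP R (pc MathieuData.pU) (pq tU)) 512 19 = true := by decide +kernel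
theorem hU20 : chunk (gP R (pc MathieuData.pU) (pq tU)) 512 20 = true := by decide +kernel
theorem hU21 : chunk (gP R (pc MathieuData.pU) (pq tU)) 512 21 = true := by decide +kernel
theorem code1 : E.IsCode (R.rep Cfsg.Agent.Lib.KnownSimple.Leech.Co3.g1) (pq tU) :=
  R.code_of_P (g := Cfsg.Agent.Lib.KnownSimple.Leech.Co3.g1) (π := ⟨_, MathieuFacts.mem_U⟩) rfl MathieuFacts.code_U
    (chkP_of_chunks R (s := 512) (m := 22) (by decide) (chunks22 hU0 hU1 hU2 hU3 hU4 hU5 hU6 hU7 hU8 hU9 hU10 hU11 hU12 hU13 hU14 hU15 hU16 hU17 hU18 hU19 hU20 hU21))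

end Cfsg.Agent.Lib.Conway.X11
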