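import Cfsg.Agent.Lib.Conway.X11.CodesH

/-!
# The third Conway group acting on 11178 vectors of the lattice: the generators
-/

set_option autoImplicit false
set_option maxHeartbeats 0

namespace Cfsg.Agent.Lib.Conway.X11

open Cfsg Cfsg.Spor Cfsg.Agent.Lib.Compute Cfsg.Agent.Lib.Golay
open Cfsg.Agent.Lib.KnownSimple Cfsg.Agent.Lib.KnownSimple.PE Cfsg.Agent.Lib.KnownSimple.Leech
open Cfsg.Agent.Lib.Conway

theorem hX0 : chunk (gP R (pc MathieuData.pX) (pq tX)) 512 0 = true := by decide +kernel
theorem hX1 : chunk (gP R (pc MathieuData.pX) (pq tX)) 512 1 = true := by decide +kernel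
theorem hX2 : chunk (gP R (pc MathieuData.pX) (pq tX)) 512 2 = true := by decide +kernel
theorem hX3 : chunk (gP R (pc MathieuData.pX) (pq tX)) 512 3 = true := by decide +kernel
theorem hX4 : chunk (gP R (pc MathieuData.pX) (pq tX)) 512 4 = true := by decide +kernel
theorem hX5 : chunk (gP R (pc MathieuData.pX) (pq tX)) 512 5 = true := by decide +kernel
theorem hX6 : chunk (gP R (pc MathieuData.pX) (pq tX)) 512 6 = true := by decide +kernel
theorem hX7 : chunk (gP R (pc MathieuData.pX) (pq tX)) 512 7 = true := by decide +kernel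
theorem hX8 : chunk (gP R (pc MathieuData.pX) (pq tX)) 512 8 = true := by decide +kernel
theorem hX9 : chunk (gP R (pc MathieuData.pX) (pq tX)) 512 9 = true := by decide +kernel
theorem hX10 : chunk (gP R (pc MathieuData.pX) (pq tX)) 512 10 = true := by decide +kernel
theorem hX11 : chunk (gP R (pc MathieuData.pX) (pq tX)) 512 11 = true := by decide +kernel
theorem hX12 : chunk (gP R (pc MathieuData.pX) (pq tX)) 512 12 = true := by decide +kernel
theorem hX13 : chunk (gP R (pc MathieuData.pX) (pq tX)) 512 13 = true := by decide +kernel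
theorem hX14 : chunk (gP R (pc MathieuData.pX) (pq tX)) 512 14 = true := by decide +kernel
theorem hX15 : chunk (gP R (pc MathieuData.pX) (pq tX)) 512 15 = true := by decide +kernel
theorem hX16 : chunk (gP R (pc MathieuData.pX) (pq tX)) 512 16 = true := by decide +kernel
theorem hX17 : chunk (gP R (pc MathieuData.pX) (pq tX)) 512 17 = true := by decide +kernel
theorem hX18 : chunk (gP R (pc MathieuData.pX) (pq tX)) 512 18 = true := by decide +kernel
theorem hX19 : chunk (gP R (pc MathieuData.pX) (pq tX)) 512 19 = true := by decide +kernel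
theorem hX20 : chunk (gP R (pc MathieuData.pX) (pq tX)) 512 20 = true := by decide +kernel
theorem hX21 : chunk (gP R (pc MathieuData.pX) (pq tX)) 512 21 = true := by decide +kernel
theorem code2 : E.IsCode (R.rep Cfsg.Agent.Lib.KnownSimple.Leech.Co3.g2) (pq tX) :=
  R.code_of_P (g := Cfsg.Agent.Lib.KnownSimple.Leech.Co3.g2) (π := ⟨_, MathieuFacts.mem_X⟩) rfl MathieuFacts.code_X
    (chkP_of_chunks R (s := 512) (m := 22) (by decide) (chunks22 hX0 hX1 hX2 hX3 hX4 hX5 hX6 hX7 hX8 hX9 hX10 hX11 hX12 hX13 hX14 hX15 hX16 hX17 hX18 hX19 hX20 hX21))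

end Cfsg.Agent.Lib.Conway.X11
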