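import Cfsg.Agent.Lib.Conway.X11.CodesH

/-!
# The third Conway group acting on 11178 vectors of the lattice: the generators
-/

set_option autoImplicit false
set_option maxHeartbeats 0

namespace Cfsg.Agent.Lib.Conway.X11

open Cfsg Cfsg.Spor Cfsg.Agent.Lib.Compute Cfsg.Agent.Lib.Golay
open Cfsg.Agent.Lib.KnownSimple Cfsg.Agent.Lib.KnownSimple.PE Cfsg.Agent.Lib.KnownSimple.Leech
open Cfsg.Agent.Lib.Conway

theorem hZ0 : chunk (gS R Cfsg.Agent.Lib.KnownSimple.Leech.Co3Data.SZ (pq tZ)) 512 0 = true := by decide +kernel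
theorem hZ1 : chunk (gS R Cfsg.Agent.Lib.KnownSimple.Leech.Co3Data.SZ (pq tZ)) 512 1 = true := by decide +kernel
theorem hZ2 : chunk (gS R Cfsg.Agent.Lib.KnownSimple.Leech.Co3Data.SZ (pq tZ)) 512 2 = true := by decide +kernel
theorem hZ3 : chunk (gS R Cfsg.Agent.Lib.KnownSimple.Leech.Co3Data.SZ (pq tZ)) 512 3 = true := by decide +kernel
theorem hZ4 : chunk (gS R Cfsg.Agent.Lib.KnownSimple.Leech.Co3Data.SZ (pq tZ)) 512 4 = true := by decide +kernel
theorem hZ5 : chunk (gS R Cfsg.Agent.Lib.KnownSimple.Leech.Co3Data.SZ (pq tZ)) 512 5 = true := by decide +kernel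
theorem hZ6 : chunk (gS R Cfsg.Agent.Lib.KnownSimple.Leech.Co3Data.SZ (pq tZ)) 512 6 = true := by decide +kernel
theorem hZ7 : chunk (gS R Cfsg.Agent.Lib.KnownSimple.Leech.Co3Data.SZ (pq tZ)) 512 7 = true := by decide +kernel
theorem hZ8 : chunk (gS R Cfsg.Agent.Lib.KnownSimple.Leech.Co3Data.SZ (pq tZ)) 512 8 = true := by decide +kernel
theorem hZ9 : chunk (gS R Cfsg.Agent.Lib.KnownSimple.Leech.Co3Data.SZ (pq tZ)) 512 9 = true := by decide +kernel
theorem hZ10 : chunk (gS R Cfsg.Agent.Lib.KnownSimple.Leech.Co3Data.SZ (pq tZ)) 512 10 = true := by decide +kernel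
theorem hZ11 : chunk (gS R Cfsg.Agent.Lib.KnownSimple.Leech.Co3Data.SZ (pq tZ)) 512 11 = true := by decide +kernel
theorem hZ12 : chunk (gS R Cfsg.Agent.Lib.KnownSimple.Leech.Co3Data.SZ (pq tZ)) 512 12 = true := by decide +kernel
theorem hZ13 : chunk (gS R Cfsg.Agent.Lib.KnownSimple.Leech.Co3Data.SZ (pq tZ)) 512 13 = true := by decide +kernel
theorem hZ14 : chunk (gS R Cfsg.Agent.Lib.KnownSimple.Leech.Co3Data.SZ (pq tZ)) 512 14 = true := by decide +kernel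
theorem hZ15 : chunk (gS R Cfsg.Agent.Lib.KnownSimple.Leech.Co3Data.SZ (pq tZ)) 512 15 = true := by decide +kernel
theorem hZ16 : chunk (gS R Cfsg.Agent.Lib.KnownSimple.Leech.Co3Data.SZ (pq tZ)) 512 16 = true := by decide +kernel
theorem hZ17 : chunk (gS R Cfsg.Agent.Lib.KnownSimple.Leech.Co3Data.SZ (pq tZ)) 512 17 = true := by decide +kernel
theorem hZ18 : chunk (gS R Cfsg.Agent.Lib.KnownSimple.Leech.Co3Data.SZ (pq tZ)) 512 18 = true := by decide +kernel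
theorem hZ19 : chunk (gS R Cfsg.Agent.Lib.KnownSimple.Leech.Co3Data.SZ (pq tZ)) 512 19 = true := by decide +kernel
theorem hZ20 : chunk (gS R Cfsg.Agent.Lib.KnownSimple.Leech.Co3Data.SZ (pq tZ)) 512 20 = true := by decide +kernel
theorem hZ21 : chunk (gS R Cfsg.Agent.Lib.KnownSimple.Leech.Co3Data.SZ (pq tZ)) 512 21 = true := by decide +kernel
theorem code3 : E.IsCode (R.rep Cfsg.Agent.Lib.KnownSimple.Leech.Co3.g3) (pq tZ) :=
  R.code_of_S (g := Cfsg.Agent.Lib.KnownSimple.Leech.Co3.g3) Cfsg.Agent.Lib.KnownSimple.Leech.Co3.colsZ Cfsg.Agent.Lib.KnownSimple.Leech.Co3.zP_spec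
    (chkS_of_chunks R (s := 512) (m := 22) (by decide) (chunks22 hZ0 hZ1 hZ2 hZ3 hZ4 hZ5 hZ6 hZ7 hZ8 hZ9 hZ10 hZ11 hZ12 hZ13 hZ14 hZ15 hZ16 hZ17 hZ18 hZ19 hZ20 hZ21))

end Cfsg.Agent.Lib.Conway.X11
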