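import Cfsg.Agent.Lib.Conway.X11.R2

/-!
# The Higman–Sims group acting on 11178 vectors of the lattice: the generators
-/

set_option autoImplicit false
set_option maxHeartbeats 0

namespace Cfsg.Agent.Lib.Conway.X11

open Cfsg Cfsg.Spor Cfsg.Agent.Lib.Compute Cfsg.Agent.Lib.Golay
open Cfsg.Agent.Lib.KnownSimple Cfsg.Agent.Lib.KnownSimple.PE Cfsg.Agent.Lib.KnownSimple.Leech
open Cfsg.Agent.Lib.Conway

theorem hY0 : chunk (gP R2 (pc MathieuData.pY4) (pq tY)) 512 0 = true := by decide +kernel
theorem hY1 : chunk (gP R2 (pc MathieuData.pY4) (pq tY)) 512 1 = true := by decide +kernel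
theorem hY2 : chunk (gP R2 (pc MathieuData.pY4) (pq tY)) 512 2 = true := by decide +kernel
theorem hY3 : chunk (gP R2 (pc MathieuData.pY4) (pq tY)) 512 3 = true := by decide +kernel
theorem hY4 : chunk (gP R2 (pc MathieuData.pY4) (pq tY)) 512 4 = true := by decide +kernel
theorem hY5 : chunk (gP R2 (pc MathieuData.pY4) (pq tY)) 512 5 = true := by decide +kernel
theorem hY6 : chunk (gP R2 (pc MathieuData.pY4) (pq tY)) 512 6 = true := by decide +kernel
theorem hY7 : chunk (gP R2 (pc MathieuData.pY4) (pq tY)) 512 7 = true := by decide +kernel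
theorem hY8 : chunk (gP R2 (pc MathieuData.pY4) (pq tY)) 512 8 = true := by decide +kernel
theorem hY9 : chunk (gP R2 (pc MathieuData.pY4) (pq tY)) 512 9 = true := by decide +kernel
theorem hY10 : chunk (gP R2 (pc MathieuData.pY4) (pq tY)) 512 10 = true := by decide +kernel
theorem hY11 : chunk (gP R2 (pc MathieuData.pY4) (pq tY)) 512 11 = true := by decide +kernel
theorem hY12 : chunk (gP R2 (pc MathieuData.pY4) (pq tY)) 512 12 = true := by decide +kernel
theorem hY13 : chunk (gP R2 (pc MathieuData.pY4) (pq tY)) 512 13 = true := by decide +kernel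
theorem hY14 : chunk (gP R2 (pc MathieuData.pY4) (pq tY)) 512 14 = true := by decide +kernel
theorem hY15 : chunk (gP R2 (pc MathieuData.pY4) (pq tY)) 512 15 = true := by decide +kernel
theorem hY16 : chunk (gP R2 (pc MathieuData.pY4) (pq tY)) 512 16 = true := by decide +kernel
theorem hY17 : chunk (gP R2 (pc MathieuData.pY4) (pq tY)) 512 17 = true := by decide +kernel
theorem hY18 : chunk (gP R2 (pc MathieuData.pY4) (pq tY)) 512 18 = true := by decide +kernel
theorem hY19 : chunk (gP R2 (pc MathieuData.pY4) (pq tY)) 512 19 = true := by decide +kernel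
theorem hY20 : chunk (gP R2 (pc MathieuData.pY4) (pq tY)) 512 20 = true := by decide +kernel
theorem hY21 : chunk (gP R2 (pc MathieuData.pY4) (pq tY)) 512 21 = true := by decide +kernel
theorem code2Y : E.IsCode (R2.rep HS.gY) (pq tY) :=
  R2.code_of_P (g := HS.gY) (π := ⟨_, MathieuFacts.mem_Y4⟩) rfl MathieuFacts.code_Y4
    (chkP_of_chunks R2 (s := 512) (m := 22) (by decide) (chunks22 hY0 hY1 hY2 hY3 hY4 hY5 hY6 hY7 hY8 hY9 hY10 hY11 hY12 hY13 hY14 hY15 hY16 hY17 hY18 hY19 hY20 hY21))

end Cfsg.Agent.Lib.Conway.X11
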