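import Cfsg.Agent.Lib.Conway.X11.R2

/-!
# The Higman–Sims group acting on 11178 vectors of the lattice: the generators
-/

set_option autoImplicit false
set_option maxHeartbeats 0

namespace Cfsg.Agent.Lib.Conway.X11

open Cfsg Cfsg.Spor Cfsg.Agent.Lib.Compute Cfsg.Agent.Lib.Golay
open Cfsg.Agent.Lib.KnownSimple Cfsg.Agent.Lib.KnownSimple.PE Cfsg.Agent.Lib.KnownSimple.Leech
open Cfsg.Agent.Lib.Conway

theorem hE0 : chunk (gS R2 Cfsg.Agent.Lib.KnownSimple.Leech.HSData.SE (pq tE)) 512 0 = true := by decide +kernel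
theorem hE1 : chunk (gS R2 Cfsg.Agent.Lib.KnownSimple.Leech.HSData.SE (pq tE)) 512 1 = true := by decide +kernel
theorem hE2 : chunk (gS R2 Cfsg.Agent.Lib.KnownSimple.Leech.HSData.SE (pq tE)) 512 2 = true := by decide +kernel
theorem hE3 : chunk (gS R2 Cfsg.Agent.Lib.KnownSimple.Leech.HSData.SE (pq tE)) 512 3 = true := by decide +kernel
theorem hE4 : chunk (gS R2 Cfsg.Agent.Lib.KnownSimple.Leech.HSData.SE (pq tE)) 512 4 = true := by decide +kernel
theorem hE5 : chunk (gS R2 Cfsg.Agent.Lib.KnownSimple.Leech.HSData.SE (pq tE)) 512 5 = true := by decide +kernel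
theorem hE6 : chunk (gS R2 Cfsg.Agent.Lib.KnownSimple.Leech.HSData.SE (pq tE)) 512 6 = true := by decide +kernel
theorem hE7 : chunk (gS R2 Cfsg.Agent.Lib.KnownSimple.Leech.HSData.SE (pq tE)) 512 7 = true := by decide +kernel
theorem hE8 : chunk (gS R2 Cfsg.Agent.Lib.KnownSimple.Leech.HSData.SE (pq tE)) 512 8 = true := by decide +kernel
theorem hE9 : chunk (gS R2 Cfsg.Agent.Lib.KnownSimple.Leech.HSData.SE (pq tE)) 512 9 = true := by decide +kernel
theorem hE10 : chunk (gS R2 Cfsg.Agent.Lib.KnownSimple.Leech.HSData.SE (pq tE)) 512 10 = true := by decide +kernel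
theorem hE11 : chunk (gS R2 Cfsg.Agent.Lib.KnownSimple.Leech.HSData.SE (pq tE)) 512 11 = true := by decide +kernel
theorem hE12 : chunk (gS R2 Cfsg.Agent.Lib.KnownSimple.Leech.HSData.SE (pq tE)) 512 12 = true := by decide +kernel
theorem hE13 : chunk (gS R2 Cfsg.Agent.Lib.KnownSimple.Leech.HSData.SE (pq tE)) 512 13 = true := by decide +kernel
theorem hE14 : chunk (gS R2 Cfsg.Agent.Lib.KnownSimple.Leech.HSData.SE (pq tE)) 512 14 = true := by decide +kernel
theorem hE15 : chunk (gS R2 Cfsg.Agent.Lib.KnownSimple.Leech.HSData.SE (pq tE)) 512 15 = true := by decide +kernel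
theorem hE16 : chunk (gS R2 Cfsg.Agent.Lib.KnownSimple.Leech.HSData.SE (pq tE)) 512 16 = true := by decide +kernel
theorem hE17 : chunk (gS R2 Cfsg.Agent.Lib.KnownSimple.Leech.HSData.SE (pq tE)) 512 17 = true := by decide +kernel
theorem hE18 : chunk (gS R2 Cfsg.Agent.Lib.KnownSimple.Leech.HSData.SE (pq tE)) 512 18 = true := by decide +kernel
theorem hE19 : chunk (gS R2 Cfsg.Agent.Lib.KnownSimple.Leech.HSData.SE (pq tE)) 512 19 = true := by decide +kernel
theorem hE20 : chunk (gS R2 Cfsg.Agent.Lib.KnownSimple.Leech.HSData.SE (pq tE)) 512 20 = true := by decide +kernel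
theorem hE21 : chunk (gS R2 Cfsg.Agent.Lib.KnownSimple.Leech.HSData.SE (pq tE)) 512 21 = true := by decide +kernel
theorem code2E : E.IsCode (R2.rep HS.gE) (pq tE) :=
  R2.code_of_S (g := HS.gE) HS.colsE HS.eP_spec
    (chkS_of_chunks R2 (s := 512) (m := 22) (by decide) (chunks22 hE0 hE1 hE2 hE3 hE4 hE5 hE6 hE7 hE8 hE9 hE10 hE11 hE12 hE13 hE14 hE15 hE16 hE17 hE18 hE19 hE20 hE21))

end Cfsg.Agent.Lib.Conway.X11
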