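import Cfsg.Agent.Lib.Conway.X11.Rep
import Cfsg.Agent.Lib.Conway.ChunkRep
import Cfsg.Agent.Lib.Conway.McLUse
import Cfsg.Agent.Lib.KnownSimple.Leech.HS.Main
import Cfsg.Agent.Lib.Conway.ModTwo

/-!
# The third Conway group acting on 11178 vectors of the lattice: the generators
-/

set_option autoImplicit false
set_option maxHeartbeats 0

namespace Cfsg.Agent.Lib.Conway.X11

open Cfsg Cfsg.Spor Cfsg.Agent.Lib.Compute Cfsg.Agent.Lib.Golay
open Cfsg.Agent.Lib.KnownSimple Cfsg.Agent.Lib.KnownSimple.PE Cfsg.Agent.Lib.KnownSimple.Leech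
open Cfsg.Agent.Lib.Conway

/-- The encoding. -/
abbrev E : Enc (Fin N) N := encFin N

/-- Lookup in a permutation table. -/
noncomputable def pq (t : List (List (List ℕ))) (i : ℕ) : ℕ := pgetH 14 16383 t i

theorem tests_iff (x : LL) : testsOK R.tests (toF x.1) = true ↔ dotInt x.1 leechV.1 = -16 := by
  rw [testsOK_iff]
  have m1 : ((rowV, -16) : List (ℕ × ℤ) × ℤ) ∈ R.tests := by
    simp [R, tests]
  have h1 : dotS rowV (toF x.1) = dotInt x.1 leechV.1 := LRep.dotS_toF (R.hcols _ m1) rowV_pt x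
  constructor
  · intro h
    rw [← h1]
    exact h _ m1
  · intro h t ht
    simp only [R, tests, List.mem_cons, List.not_mem_nil, or_false] at ht
    rw [ht]
    show dotS rowV (toF x.1) = -16
    rw [h1, h]

theorem XD_base : XD leechV (-16) = Set.range R.vec := by
  rw [TabUse.range_vec]
  ext x
  constructor
  · rintro ⟨h1, h2⟩
    exact ⟨h1, (tests_iff x).2 (by rw [dotInt_comm]; exact h2)⟩
  · rintro ⟨h1, h2⟩
    exact ⟨h1, by rw [dotInt_comm]; exact (tests_iff x).1 h2⟩

theorem ncard_XD_base : (XD leechV (-16)).ncard = 11178 := by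
  rw [XD_base, TabUse.ncard_range]

end Cfsg.Agent.Lib.Conway.X11
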