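import Cfsg.Agent.Lib.Conway.X11.Main
import Cfsg.Agent.Lib.Conway.X11.HSInvData

/-!
# The Higman–Sims configuration
-/

set_option autoImplicit false

namespace Cfsg.Agent.Lib.Conway.HSU

open Cfsg Cfsg.Spor Cfsg.Agent.Lib.Compute Cfsg.Agent.Lib.Golay
open Cfsg.Agent.Lib.KnownSimple Cfsg.Agent.Lib.KnownSimple.PE Cfsg.Agent.Lib.KnownSimple.Leech
open Cfsg.Agent.Lib.Conway
open Cfsg.Agent.Lib.KnownSimple.Leech.HS (hh L0 L1 top lev1 tab cK ciK pq)

/-- The table. -/
noncomputable abbrev R : LRep Spor.HS 100 := Cfsg.Agent.Lib.KnownSimple.Leech.HS.R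

theorem tests_iff (x : LL) : testsOK R.tests (toF x.1) = true ↔ dotInt x.1 leechU'.1 = 0 ∧ dotInt x.1 leechV.1 = -24 := by
  rw [testsOK_iff]
  have m1 : ((rowU', 0) : List (ℕ × ℤ) × ℤ) ∈ R.tests := by
    simp [R, Cfsg.Agent.Lib.KnownSimple.Leech.HS.R, Cfsg.Agent.Lib.KnownSimple.Leech.HS.tests]
  have m2 : ((rowV, -24) : List (ℕ × ℤ) × ℤ) ∈ R.tests := by
    simp [R, Cfsg.Agent.Lib.KnownSimple.Leech.HS.R, Cfsg.Agent.Lib.KnownSimple.Leech.HS.tests]
  have h1 : dotS rowU' (toF x.1) = dotInt x.1 leechU'.1 := LRep.dotS_toF (R.hcols _ m1) rowU'_pt x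
  have h2 : dotS rowV (toF x.1) = dotInt x.1 leechV.1 := LRep.dotS_toF (R.hcols _ m2) rowV_pt x
  constructor
  · intro h
    exact ⟨by rw [← h1]; exact h _ m1, by rw [← h2]; exact h _ m2⟩
  · rintro ⟨h3, h4⟩ t ht
    simp only [R, Cfsg.Agent.Lib.KnownSimple.Leech.HS.R, Cfsg.Agent.Lib.KnownSimple.Leech.HS.tests, List.mem_cons,
      List.not_mem_nil, or_false] at ht
    rcases ht with rfl | rfl
    · show dotS rowU' (toF x.1) = 0
      rw [h1, h3]
    · show dotS rowV (toF x.1) = -24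
      rw [h2, h4]

/-- The vectors of the configuration. -/
def XH (v w : LL) : Set LL := {x | sqNorm x.1 = 32 ∧ dotInt v.1 x.1 = 24 ∧ dotInt w.1 x.1 = -24}

theorem mem_XH_iff {g : Equiv.Perm LL} (hg : g ∈ Co0) (v w y : LL) : g y ∈ XH (g v) (g w) ↔ y ∈ XH v w := by
  show (sqNorm (g y).1 = 32 ∧ dotInt (g v).1 (g y).1 = 24 ∧ dotInt (g w).1 (g y).1 = -24) ↔
    (sqNorm y.1 = 32 ∧ dotInt v.1 y.1 = 24 ∧ dotInt w.1 y.1 = -24)
  rw [dot_inv hg, dot_inv hg, hg.2 y]

/-- The first base vector. -/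
noncomputable abbrev v0 : LL := -leechV
/-- The second base vector. -/
noncomputable abbrev w0 : LL := leechU' + leechV

theorem XH_base : XH v0 w0 = Set.range R.vec := by
  rw [TabUse.range_vec]
  ext x
  have e1 : dotInt v0.1 x.1 = -dotInt x.1 leechV.1 := by
    rw [coe_neg, dotInt_neg_left, dotInt_comm]
  have e2 : dotInt w0.1 x.1 = dotInt x.1 leechU'.1 + dotInt x.1 leechV.1 := by
    rw [coe_add, dotInt_add_left, dotInt_comm leechU'.1, dotInt_comm leechV.1]
  constructor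
  · rintro ⟨h1, h2, h3⟩
    refine ⟨h1, (tests_iff x).2 ?_⟩
    rw [e1] at h2
    rw [e2] at h3
    constructor <;> omega
  · rintro ⟨h1, h2⟩
    obtain ⟨h3, h4⟩ := (tests_iff x).1 h2
    refine ⟨h1, ?_, ?_⟩
    · rw [e1, h4]
      norm_num
    · rw [e2, h3, h4]
      norm_num

theorem full0 : allBelow (tb L0.D) 100 = true := by decide +kernel

theorem mem_Co0 (g : ↥Spor.HS) : g.1 ∈ Co0 := g.2.1.1
theorem fix_V (g : ↥Spor.HS) : g.1 leechV = leechV := g.2.1.2
theorem fix_U' (g : ↥Spor.HS) : g.1 leechU' = leechU' := g.2.2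

theorem fix_v0 (g : ↥Spor.HS) : g.1 v0 = v0 := by
  rw [map_neg_Co0 (mem_Co0 g), fix_V]

theorem fix_w0 (g : ↥Spor.HS) : g.1 w0 = w0 := by
  rw [map_add_Co0 (mem_Co0 g), fix_V, fix_U']

/-- Transitivity of the group on the table. -/
theorem trans_XH {x x' : LL} (hx : x ∈ XH v0 w0) (hx' : x' ∈ XH v0 w0) : ∃ g : ↥Spor.HS, g.1 x = x' := by
  rw [XH_base] at hx hx'
  obtain ⟨i, rfl⟩ := hx
  obtain ⟨j, rfl⟩ := hx'
  obtain ⟨g, _, e⟩ := TabUse.trans_of_level R (le_refl _) top.2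
    ((allBelow_iff _ _).1 full0 i i.isLt) ((allBelow_iff _ _).1 full0 j j.isLt)
  exact ⟨g, e⟩

/-- The standard position. -/
theorem orb_hs (v w : LL) (hv : sqNorm v.1 = 48) (hw : sqNorm w.1 = 48) (hvw : dotInt v.1 w.1 = -32) :
    ∃ g ∈ Co0, g v = v0 ∧ g w = w0 := by
  have hu : sqNorm (-v : LL).1 = 48 := by
    rw [coe_neg, sqNorm_neg]
    exact hv
  have hx1 : sqNorm (v + w : LL).1 = 32 := by
    rw [coe_add, sqNorm_add, hv, hw, hvw]
    norm_num
  have hx2 : dotInt (-v : LL).1 (v + w : LL).1 = -16 := by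
    rw [coe_neg, dotInt_neg_left, coe_add, dotInt_comm, dotInt_add_left, dotInt_self, hv, dotInt_comm w.1, hvw]
    norm_num
  obtain ⟨g, hg, e1, e2⟩ := X11.orb_xd (-v) (v + w) hu ⟨hx1, hx2⟩
  rw [map_neg_Co0 hg] at e1
  rw [map_add_Co0 hg] at e2
  have e3 : g v = -leechV := by
    rw [← e1, neg_neg]
  refine ⟨g, hg, e3, ?_⟩
  rw [e3] at e2
  show g w = leechU' + leechV
  rw [← e2]
  abel

/-- Elements of the standard group, conjugated. -/
noncomputable def conj (k : Equiv.Perm LL) (hk : k ∈ Co0) (g : ↥Spor.HS) : ↥Co0 :=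
  ⟨k⁻¹ * g.1 * k, mul_mem (mul_mem (inv_mem hk) (mem_Co0 g)) hk⟩

theorem conj_apply (k : Equiv.Perm LL) (hk : k ∈ Co0) (g : ↥Spor.HS) (y : LL) : conj k hk g • y = k⁻¹ (g.1 (k y)) := rfl

theorem conj_fix (k : Equiv.Perm LL) (hk : k ∈ Co0) (g : ↥Spor.HS) {y y' z : LL} (h : k y = z) (h2 : k y' = z) (hz : g.1 z = z) :
    conj k hk g • y = y' := by
  rw [conj_apply, h, hz, ← h2]
  simp

/-- Statement on transitivity. -/
theorem S1583_aux (v w : LL) (hv : sqNorm v.1 = 48) (hw : sqNorm w.1 = 48) (hvw : dotInt v.1 w.1 = -32) :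
    (XH v w).ncard = 100 ∧ ∀ x ∈ XH v w, ∀ x' ∈ XH v w, ∃ g : ↥Co0, g • v = v ∧ g • w = w ∧ g • x = x' := by
  obtain ⟨k, hk, e1, e2⟩ := orb_hs v w hv hw hvw
  have himg : k '' XH v w = XH v0 w0 := by
    ext y
    constructor
    · rintro ⟨z, hz, rfl⟩
      rw [← e1, ← e2, mem_XH_iff hk]
      exact hz
    · intro hy
      refine ⟨k⁻¹ y, ?_, by simp⟩
      rw [← e1, ← e2, show y = k (k⁻¹ y) by simp, mem_XH_iff hk] at hy
      exact hy
  refine ⟨?_, fun x hx x' hx' => ?_⟩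
  · rw [← Set.ncard_image_of_injective _ k.injective, himg, XH_base, TabUse.ncard_range]
  · have h1 : k x ∈ XH v0 w0 := by
      rw [← himg]
      exact ⟨x, hx, rfl⟩
    have h2 : k x' ∈ XH v0 w0 := by
      rw [← himg]
      exact ⟨x', hx', rfl⟩
    obtain ⟨g, e⟩ := trans_XH h1 h2
    refine ⟨conj k hk g, conj_fix k hk g e1 e1 (fix_v0 g), conj_fix k hk g e2 e2 (fix_w0 g), ?_⟩
    rw [conj_apply, e]
    simp

/-! ### The rank three action -/

theorem U_eq : R.vec ⟨99, by norm_num⟩ = leechU := R.vec_eq (by norm_num) rowU_pt (by decide +kernel)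

theorem U_mem : leechU ∈ XH v0 w0 := by
  rw [XH_base, ← U_eq]
  exact ⟨_, rfl⟩

theorem K_le : hh.K 11 ≤ R.rep.range := hh.K_le (by norm_num)

theorem fix_U {g : ↥Spor.HS} (hg : R.rep g ∈ hh.K 11) : g.1 leechU = leechU := by
  have h1 := TabUse.vec_fix R (b := 99) (by norm_num) (g := g) (top.2.fixK _ hg)
  rwa [U_eq] at h1

/-- A tree of an orbit. -/
noncomputable def Lb : Lev :=
  { b := 0, D := TreeData.D_HSb, arr := TreeData.A_HSb, w := 13, m := 8191, mp := 127, bn := 7, mg := 15, bd := 11,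
    fs := Cfsg.Agent.Lib.KnownSimple.Leech.bc cK 11, gs := Cfsg.Agent.Lib.KnownSimple.Leech.bc ciK 11 }

theorem treeB : Lb.treeOK 100 = true := by decide +kernel
theorem gensB : GensIn (encFin 100) (hh.K 11) Lb := hh.gens (by norm_num) rfl rfl

/-- The orbit of size 22. -/
noncomputable def P8 (i : ℕ) : Bool := decide (dotZ tab i 99 = 8)
/-- The orbit of size 77. -/
noncomputable def P77 (i : ℕ) : Bool := (!Nat.beq i 99) && !decide (dotZ tab i 99 = 8)

theorem cnt8 : countBelow P8 100 = 22 := by decide +kernel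
theorem cnt77 : countBelow P77 100 = 77 := by decide +kernel
theorem chk8 : allBelow (fun j => bcond (P8 j) (tb Lb.D j) true) 100 = true := by decide +kernel
theorem chk77 : allBelow (fun j => bcond (P77 j) (tb L1.D j) true) 100 = true := by decide +kernel

theorem dot_U_vec (i : Fin 100) : dotInt leechU.1 (R.vec i).1 = dotZ tab i 99 := by
  rw [dotInt_comm, ← U_eq, TabUse.vec_dot]
  rfl

theorem P8_iff (i : Fin 100) : P8 i = true ↔ dotInt leechU.1 (R.vec i).1 = 8 := by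
  rw [dot_U_vec]
  exact decide_eq_true_iff

theorem vec_eq_U_iff (i : Fin 100) : R.vec i = leechU ↔ i.val = 99 := by
  rw [← U_eq]
  constructor
  · intro h
    rw [R.vec_inj h]
  · intro h
    congr 1
    exact Fin.ext h

theorem P77_iff (i : Fin 100) : P77 i = true ↔ R.vec i ≠ leechU ∧ dotInt leechU.1 (R.vec i).1 ≠ 8 := by
  unfold P77
  rw [Bool.and_eq_true, Bool.not_eq_true', Bool.not_eq_true', dot_U_vec, Ne, Ne, vec_eq_U_iff]
  refine and_congr ?_ ?_
  · rw [Bool.eq_false_iff]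
    exact not_congr ⟨Nat.eq_of_beq_eq_true, fun h => by rw [h]; rfl⟩
  · rw [Bool.eq_false_iff]
    exact not_congr decide_eq_true_iff

/-- Counting. -/
theorem ncard_of {v w : LL} {k : Equiv.Perm LL} (hk : k ∈ Co0) (e1 : k v = v0) (e2 : k w = w0) (P : ℕ → Bool) (Q : LL → Prop)
    (hQ : ∀ y (i : Fin 100), k y = R.vec i → (Q y ↔ P i = true)) :
    {y : LL | y ∈ XH v w ∧ Q y}.ncard = countBelow P 100 := by
  rw [← TabUse.ncard_filter R P, ← Set.ncard_image_of_injective _ k.injective]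
  congr 1
  ext z
  constructor
  · rintro ⟨y, ⟨h1, h2⟩, rfl⟩
    have h3 : k y ∈ XH v0 w0 := by
      rw [← e1, ← e2, mem_XH_iff hk]
      exact h1
    rw [XH_base] at h3
    obtain ⟨i, hi⟩ := h3
    exact ⟨i, (hQ y i hi.symm).1 h2, hi⟩
  · rintro ⟨i, hi, rfl⟩
    have e3 : k (k⁻¹ (R.vec i)) = R.vec i := by simp
    refine ⟨k⁻¹ (R.vec i), ⟨?_, (hQ _ i e3).2 hi⟩, e3⟩
    rw [← mem_XH_iff hk, e1, e2, e3, XH_base]
    exact ⟨i, rfl⟩

/-- The rank three statement. -/
theorem S1584_aux (v w x : LL) (hv : sqNorm v.1 = 48) (hw : sqNorm w.1 = 48) (hvw : dotInt v.1 w.1 = -32) (hx : x ∈ XH v w) :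
    {y : LL | y ∈ XH v w ∧ dotInt x.1 y.1 = 8}.ncard = 22 ∧ {y : LL | y ∈ XH v w ∧ y ≠ x ∧ dotInt x.1 y.1 ≠ 8}.ncard = 77 ∧
      ∀ y ∈ XH v w, ∀ y' ∈ XH v w, y ≠ x → y' ≠ x → (dotInt x.1 y.1 = 8 ↔ dotInt x.1 y'.1 = 8) →
        ∃ g : ↥Co0, g • v = v ∧ g • w = w ∧ g • x = x ∧ g • y = y' := by
  obtain ⟨k₀, hk₀, e1', e2'⟩ := orb_hs v w hv hw hvw
  have hx0 : k₀ x ∈ XH v0 w0 := by
    rw [← e1', ← e2', mem_XH_iff hk₀]
    exact hx
  obtain ⟨g₀, e₀⟩ := trans_XH hx0 U_mem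
  set k : Equiv.Perm LL := g₀.1 * k₀ with hkdef
  have hk : k ∈ Co0 := mul_mem (mem_Co0 g₀) hk₀
  have e1 : k v = v0 := by
    rw [hkdef, Equiv.Perm.mul_apply, e1', fix_v0]
  have e2 : k w = w0 := by
    rw [hkdef, Equiv.Perm.mul_apply, e2', fix_w0]
  have e3 : k x = leechU := e₀
  have hdot : ∀ y, dotInt x.1 y.1 = dotInt leechU.1 (k y).1 := fun y => by
    rw [← e3, dot_inv hk]
  refine ⟨?_, ?_, fun y hy y' hy' hne hne' hiff => ?_⟩
  · rw [ncard_of hk e1 e2 P8 (fun y => dotInt x.1 y.1 = 8) (fun y i hi => by rw [P8_iff, ← hi, ← hdot]), cnt8]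
  · have := ncard_of hk e1 e2 P77 (fun y => y ≠ x ∧ dotInt x.1 y.1 ≠ 8) (fun y i hi => by
      rw [P77_iff, ← hi, ← hdot, ← e3]
      exact and_congr (not_congr k.injective.eq_iff.symm) Iff.rfl)
    rw [cnt77] at this
    exact this
  · have h1 : k y ∈ XH v0 w0 := by
      rw [← e1, ← e2, mem_XH_iff hk]
      exact hy
    have h2 : k y' ∈ XH v0 w0 := by
      rw [← e1, ← e2, mem_XH_iff hk]
      exact hy'
    rw [XH_base] at h1 h2
    obtain ⟨i, hi⟩ := h1
    obtain ⟨j, hj⟩ := h2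
    have hne1 : R.vec i ≠ leechU := by
      rw [hi, ← e3]
      exact fun h => hne (k.injective h)
    have hne2 : R.vec j ≠ leechU := by
      rw [hj, ← e3]
      exact fun h => hne' (k.injective h)
    rw [hdot, hdot, ← hi, ← hj] at hiff
    have key : ∃ g : ↥Spor.HS, R.rep g ∈ hh.K 11 ∧ g.1 (R.vec i) = R.vec j := by
      by_cases h8 : dotInt leechU.1 (R.vec i).1 = 8
      · have h8' := hiff.1 h8
        have d1 := (allBelow_iff _ _).1 chk8 i i.isLt
        have d2 := (allBelow_iff _ _).1 chk8 j j.isLt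
        rw [(P8_iff i).2 h8, bcond_true] at d1
        rw [(P8_iff j).2 h8', bcond_true] at d2
        exact TabUse.trans_of_treeOK R K_le gensB treeB d1 d2
      · have h8' : dotInt leechU.1 (R.vec j).1 ≠ 8 := fun h => h8 (hiff.2 h)
        have d1 := (allBelow_iff _ _).1 chk77 i i.isLt
        have d2 := (allBelow_iff _ _).1 chk77 j j.isLt
        rw [(P77_iff i).2 ⟨hne1, h8⟩, bcond_true] at d1
        rw [(P77_iff j).2 ⟨hne2, h8'⟩, bcond_true] at d2
        exact TabUse.trans_of_level R K_le lev1 d1 d2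
    obtain ⟨g, hg, e⟩ := key
    refine ⟨conj k hk g, conj_fix k hk g e1 e1 (fix_v0 g), conj_fix k hk g e2 e2 (fix_w0 g), conj_fix k hk g e3 e3 (fix_U hg), ?_⟩
    rw [conj_apply, ← hi, e, hj]
    simp

/-! ### The exchange -/

/-- The two base vectors are exchanged. -/
theorem exists_swap : ∃ e ∈ Co0, e v0 = w0 ∧ e w0 = v0 := by
  obtain ⟨π, h1, h2, h3⟩ := exists_three (p := none) (q := some 0) (r := some 1) (p' := some 0) (q' := none) (r' := some 1)
    (by simp) (by simp) (by decide) (by simp) (by decide) (by simp)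
  have s1 : π.1.symm (some 0) = none := by rw [Equiv.symm_apply_eq, h1]
  have s2 : π.1.symm none = some 0 := by rw [Equiv.symm_apply_eq, h2]
  have e1 : ∀ a, π.1.symm a = none ↔ a = some 0 := fun a => by
    rw [Equiv.symm_apply_eq, h1]
  have e2 : ∀ a, π.1.symm a = some 0 ↔ a = none := fun a => by
    rw [Equiv.symm_apply_eq, h2]
  have hV : phi π leechV = w0 := by
    apply Subtype.ext
    funext a
    show vecV (π.1.symm a) = vecU' a + vecV a
    simp only [vecV, vecU', e1]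
    by_cases ha : a = none
    · subst ha
      simp
    · by_cases hb : a = some 0
      · subst hb
        simp
      · simp [ha, hb]
  have hW : phi π w0 = leechV := by
    apply Subtype.ext
    funext a
    show vecU' (π.1.symm a) + vecV (π.1.symm a) = vecV a
    simp only [vecV, vecU', e1, e2]
    by_cases ha : a = none
    · subst ha
      simp
    · by_cases hb : a = some 0
      · subst hb
        simp
      · simp [ha, hb]
  refine ⟨negE.1 * phi π, mul_mem negE.2 (phi_mem π), ?_, ?_⟩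
  · rw [Equiv.Perm.mul_apply, map_neg_Co0 (phi_mem π), hV]
    apply Subtype.ext
    have := negE_apply (-w0)
    rw [coe_neg, neg_neg] at this
    exact this
  · rw [Equiv.Perm.mul_apply, hW]
    apply Subtype.ext
    have := negE_apply leechV
    rw [← coe_neg] at this
    exact this

/-- The exchange statement. -/
theorem S1585_aux (v w : LL) (hv : sqNorm v.1 = 48) (hw : sqNorm w.1 = 48) (hvw : dotInt v.1 w.1 = -32) :
    ∃ g : ↥Co0, g • v = w ∧ g • w = v := by
  obtain ⟨k, hk, e1, e2⟩ := orb_hs v w hv hw hvw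
  obtain ⟨e, he, h1, h2⟩ := exists_swap
  refine ⟨⟨k⁻¹ * e * k, mul_mem (mul_mem (inv_mem hk) he) hk⟩, ?_, ?_⟩
  · show k⁻¹ (e (k v)) = w
    rw [e1, h1, ← e2]
    simp
  · show k⁻¹ (e (k w)) = v
    rw [e2, h2, ← e1]
    simp

/-! ### A fixed point free involution -/

theorem chkI : chkElt SI SI = true := by decide +kernel
/-- An involution. -/
noncomputable def iP : Equiv.Perm LL := Classical.choose (exists_elt chkI)
theorem iP_co0 : iP ∈ Co0 := (Classical.choose_spec (exists_elt chkI)).1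
theorem iP_spec : ∀ (x : LL) (j : ℕ), j < 24 → dotS (rowOf SI j) (toF x) = 8 * ((iP x : LL) : Vec) (pt j) :=
  (Classical.choose_spec (exists_elt chkI)).2
theorem colsI : ∀ i, ∀ q ∈ rowOf SI i, q.1 < 24 := cols_of_all (by decide +kernel)
theorem iP_v : iP leechV = leechV := img_of_S colsI iP_spec rowV_pt rowV_pt (by decide +kernel)
theorem iP_u' : iP leechU' = leechU' := img_of_S colsI iP_spec rowU'_pt rowU'_pt (by decide +kernel)
/-- An involution of the group. -/
noncomputable def gI : ↥Spor.HS := ⟨iP, ⟨iP_co0, iP_v⟩, iP_u'⟩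
theorem iP_sq : iP * iP = 1 := sq_of_S colsI iP_spec (by decide +kernel)
theorem code_I : (encFin 100).IsCode (R.rep gI) (pq tI) := R.code_of_S (g := gI) colsI iP_spec (by decide +kernel)
theorem noFix : allBelow (fun i => !Nat.beq (pq tI i) i) 100 = true := by decide +kernel

theorem iP_ne {i : Fin 100} : iP (R.vec i) ≠ R.vec i := by
  intro h
  have h1 : R.rep gI i = i := by
    apply R.vec_inj
    rw [← R.rep_spec]
    exact h
  have h2 := (allBelow_iff _ _).1 noFix i i.isLt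
  have h3 : pq tI i.val = (R.rep gI i).val := code_I i
  rw [h1] at h3
  rw [h3] at h2
  simp at h2

/-- The statement on the involution. -/
theorem S1642_aux (v w : LL) (hv : sqNorm v.1 = 48) (hw : sqNorm w.1 = 48) (hvw : dotInt v.1 w.1 = -32) :
    ∃ g : ↥Co0, g • v = v ∧ g • w = w ∧ orderOf g = 2 ∧ ∀ x ∈ XH v w, g • x ≠ x := by
  obtain ⟨k, hk, e1, e2⟩ := orb_hs v w hv hw hvw
  have hfix : ∀ x ∈ XH v w, conj k hk gI • x ≠ x := by
    intro x hx h
    have h3 : k x ∈ XH v0 w0 := by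
      rw [← e1, ← e2, mem_XH_iff hk]
      exact hx
    rw [XH_base] at h3
    obtain ⟨i, hi⟩ := h3
    apply iP_ne (i := i)
    rw [conj_apply] at h
    rw [hi]
    have h4 : k (k⁻¹ (iP (k x))) = k x := by rw [show k⁻¹ (iP (k x)) = x from h]
    rw [show k (k⁻¹ (iP (k x))) = iP (k x) by simp] at h4
    exact h4
  refine ⟨conj k hk gI, conj_fix k hk gI e1 e1 (fix_v0 gI), conj_fix k hk gI e2 e2 (fix_w0 gI), ?_, hfix⟩
  apply orderOf_eq_prime
  · ext1
    show k⁻¹ * iP * k * (k⁻¹ * iP * k) = 1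
    have : k⁻¹ * iP * k * (k⁻¹ * iP * k) = k⁻¹ * (iP * iP) * k := by group
    rw [this, iP_sq]
    simp
  · intro h1
    obtain ⟨x, hx⟩ : (XH v w).Nonempty := by
      have h := (S1583_aux v w hv hw hvw).1
      by_contra hne
      rw [Set.not_nonempty_iff_eq_empty] at hne
      rw [hne] at h
      simp at h
    apply hfix x hx
    rw [h1]
    rfl

end Cfsg.Agent.Lib.Conway.HSU
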