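import Cfsg.Agent.Lib.Conway.X11.Code0
import Cfsg.Agent.Lib.Conway.X11.Code1
import Cfsg.Agent.Lib.Conway.X11.Code2
import Cfsg.Agent.Lib.Conway.X11.Code3

/-!
# The third Conway group acting on 11178 vectors of the lattice
-/

set_option autoImplicit false
set_option maxHeartbeats 0

namespace Cfsg.Agent.Lib.Conway.X11

open Cfsg Cfsg.Spor Cfsg.Agent.Lib.Compute Cfsg.Agent.Lib.Golay
open Cfsg.Agent.Lib.KnownSimple Cfsg.Agent.Lib.KnownSimple.PE Cfsg.Agent.Lib.KnownSimple.Leech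
open Cfsg.Agent.Lib.Conway

/-- The generators. -/
noncomputable def gT : ℕ → ↥Spor.Co3 :=
  lgetD 1 [Cfsg.Agent.Lib.KnownSimple.Leech.Co3.g0, Cfsg.Agent.Lib.KnownSimple.Leech.Co3.g1,
    Cfsg.Agent.Lib.KnownSimple.Leech.Co3.g2, Cfsg.Agent.Lib.KnownSimple.Leech.Co3.g3]

/-- The tree of the group on the table. -/
noncomputable def LT : Lev :=
  { b := 11177, D := fullD, arr := arrT, w := 20, m := 1048575, mp := 16383, bn := 14, mg := 3, bd := 16,
    fs := lgetD (fun a => a) [pq tW, pq tU, pq tX, pq tZ], gs := fun k => cdOf E (R.rep (gT k))⁻¹ }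

theorem treeT : LT.treeOK N = true := by decide +kernel
theorem fullT : allBelow (tb LT.D) N = true := by decide +kernel

theorem gensT : GensIn E R.rep.range LT := by
  intro k
  refine ⟨R.rep (gT k), ⟨_, rfl⟩, ?_, isCode_cdOf _⟩
  match k with
  | 0 => exact code0
  | 1 => exact code1
  | 2 => exact code2
  | 3 => exact code3
  | (k + 4) =>
    show E.IsCode (R.rep 1) (fun a => a)
    rw [map_one]
    exact isCode_one E

theorem trans_tab (i j : Fin N) : ∃ g : ↥Spor.Co3, g.1 (R.vec i) = R.vec j := by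
  obtain ⟨g, _, e⟩ := TabUse.trans_of_treeOK R (le_refl _) gensT treeT
    ((allBelow_iff _ _).1 fullT i i.isLt) ((allBelow_iff _ _).1 fullT j j.isLt)
  exact ⟨g, e⟩

theorem trans_XD {x x' : LL} (hx : x ∈ XD leechV (-16)) (hx' : x' ∈ XD leechV (-16)) : ∃ g : ↥Spor.Co3, g.1 x = x' := by
  rw [XD_base] at hx hx'
  obtain ⟨i, rfl⟩ := hx
  obtain ⟨j, rfl⟩ := hx'
  exact trans_tab i j

theorem U'_mem : leechU' ∈ XD leechV (-16) := ⟨sq_U', dot_VU'⟩

/-- Standard position for a vector of norm 48 and a minimal vector with scalar product `-16`. -/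
theorem orb_xd (u x : LL) (hu : sqNorm u.1 = 48) (hx : x ∈ XD u (-16)) : ∃ g ∈ Co0, g u = leechV ∧ g x = leechU' := by
  obtain ⟨g₀, hg₀, e₀⟩ := orb48 u hu
  have hm : negE.1 * g₀ ∈ Co0 := mul_mem negE.2 hg₀
  have e₁ : (negE.1 * g₀) u = leechV := by
    rw [Equiv.Perm.mul_apply, e₀]
    apply Subtype.ext
    have := negE_apply (-leechV)
    rw [coe_neg, neg_neg] at this
    exact this
  have himg := XD_image hm u (-16)
  rw [e₁] at himg
  have h1 : (negE.1 * g₀) x ∈ XD leechV (-16) := by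
    rw [← himg]
    exact ⟨x, hx, rfl⟩
  obtain ⟨t, ht⟩ := trans_XD h1 U'_mem
  refine ⟨t.1 * (negE.1 * g₀), mul_mem t.2.1 hm, ?_, ht⟩
  rw [Equiv.Perm.mul_apply, e₁]
  exact t.2.2

/-- The transitivity on the 11178 vectors. -/
theorem S1640_aux (u : LL) (hu : sqNorm u.1 = 48) :
    (XD u (-16)).ncard = 11178 ∧ ∀ x ∈ XD u (-16), ∀ x' ∈ XD u (-16), ∃ g ∈ Co0, g u = u ∧ g x = x' := by
  have hV : sqNorm leechV.1 = 48 := sq_V
  obtain ⟨g₀, hg₀, e₀⟩ := (orb48 u hu).trans (orb48 leechV hV).symm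
  have himg := XD_image hg₀ u (-16)
  rw [e₀] at himg
  refine ⟨?_, fun x hx x' hx' => ?_⟩
  · rw [← ncard_XD_base, ← himg, Set.ncard_image_of_injective _ g₀.injective]
  · have h1 : g₀ x ∈ XD leechV (-16) := by
      rw [← himg]
      exact ⟨x, hx, rfl⟩
    have h2 : g₀ x' ∈ XD leechV (-16) := by
      rw [← himg]
      exact ⟨x', hx', rfl⟩
    obtain ⟨t, ht⟩ := trans_XD h1 h2
    refine ⟨g₀⁻¹ * t.1 * g₀, mul_mem (mul_mem (inv_mem hg₀) t.2.1) hg₀, ?_, ?_⟩
    · simp only [Equiv.Perm.mul_apply]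
      rw [e₀, show t.1 leechV = leechV from t.2.2, ← e₀]
      simp
    · simp only [Equiv.Perm.mul_apply]
      rw [ht]
      simp

end Cfsg.Agent.Lib.Conway.X11
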