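import Cfsg.Agent.Lib.Conway.X11.Code4
import Cfsg.Agent.Lib.Conway.X11.Code5

/-!
# The Higman–Sims group acting on 11178 vectors of the lattice
-/

set_option autoImplicit false

namespace Cfsg.Agent.Lib.Conway.X11

open Cfsg Cfsg.Spor Cfsg.Agent.Lib.Compute Cfsg.Agent.Lib.Golay
open Cfsg.Agent.Lib.KnownSimple Cfsg.Agent.Lib.KnownSimple.PE Cfsg.Agent.Lib.KnownSimple.Leech
open Cfsg.Agent.Lib.Conway

theorem U'_eq : R.vec ⟨11177, by norm_num⟩ = leechU' := R.vec_eq (by norm_num) rowU'_pt (by decide +kernel)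

theorem code2U : E.IsCode (R2.rep HS.gU) (pq tU) :=
  R2.code_of_P (g := HS.gU) (π := ⟨_, MathieuFacts.mem_U⟩) rfl MathieuFacts.code_U
    (chkP_of_chunks R2 (s := 512) (m := 22) (by decide) (chunks22 hU0 hU1 hU2 hU3 hU4 hU5 hU6 hU7 hU8 hU9 hU10 hU11 hU12 hU13 hU14 hU15 hU16 hU17 hU18 hU19 hU20 hU21))
theorem code2X : E.IsCode (R2.rep HS.gX) (pq tX) :=
  R2.code_of_P (g := HS.gX) (π := ⟨_, MathieuFacts.mem_X⟩) rfl MathieuFacts.code_X
    (chkP_of_chunks R2 (s := 512) (m := 22) (by decide) (chunks22 hX0 hX1 hX2 hX3 hX4 hX5 hX6 hX7 hX8 hX9 hX10 hX11 hX12 hX13 hX14 hX15 hX16 hX17 hX18 hX19 hX20 hX21))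

/-- The generators. -/
noncomputable def gF : ℕ → ↥Spor.HS := lgetD 1 [HS.gU, HS.gX, HS.gY, HS.gE]

/-- The forest of the orbits. -/
noncomputable def LF (b D : ℕ) : Lev :=
  { b := b, D := D, arr := arrF, w := 20, m := 1048575, mp := 16383, bn := 14, mg := 3, bd := 16,
    fs := lgetD (fun a => a) [pq tU, pq tX, pq tY, pq tE], gs := fun k => cdOf E (R2.rep (gF k))⁻¹ }

theorem tree0 : (LF 4640 maskF0).treeOK N = true := by decide +kernel
theorem tree1 : (LF 516 maskF1).treeOK N = true := by decide +kernel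
theorem tree2 : (LF 1 maskF2).treeOK N = true := by decide +kernel
theorem tree3 : (LF 0 maskF3).treeOK N = true := by decide +kernel

theorem gensF (b D : ℕ) : GensIn E R2.rep.range (LF b D) := by
  intro k
  refine ⟨R2.rep (gF k), ⟨_, rfl⟩, ?_, isCode_cdOf _⟩
  match k with
  | 0 => exact code2U
  | 1 => exact code2X
  | 2 => exact code2Y
  | 3 => exact code2E
  | (k + 4) =>
    show E.IsCode (R2.rep 1) (fun a => a)
    rw [map_one]
    exact isCode_one E

/-- The scalar products with the base point. -/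
noncomputable def Pd (d : ℤ) (i : ℕ) : Bool := decide (dotZ tab i 11177 = d)

theorem cnt0 : countBelow (Pd 16) N = 1100 := by decide +kernel
theorem cnt1 : countBelow (Pd 8) N = 5600 := by decide +kernel
theorem cnt2 : countBelow (Pd 0) N = 4125 := by decide +kernel
theorem cnt3 : countBelow (Pd (-8)) N = 352 := by decide +kernel
theorem chk0 : allBelow (fun j => bcond (Pd 16 j) (tb maskF0 j) true) N = true := by decide +kernel
theorem chk1 : allBelow (fun j => bcond (Pd 8 j) (tb maskF1 j) true) N = true := by decide +kernel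
theorem chk2 : allBelow (fun j => bcond (Pd 0 j) (tb maskF2 j) true) N = true := by decide +kernel
theorem chk3 : allBelow (fun j => bcond (Pd (-8) j) (tb maskF3 j) true) N = true := by decide +kernel
theorem chkAll : allBelow (fun j => Nat.beq j 11177 || (Pd 16 j || (Pd 8 j || (Pd 0 j || Pd (-8) j)))) N = true := by decide +kernel

theorem dot_U'_vec (i : Fin N) : dotInt leechU'.1 (R.vec i).1 = dotZ tab i 11177 := by
  rw [dotInt_comm, ← U'_eq, TabUse.vec_dot]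
  rfl

theorem Pd_iff (d : ℤ) (i : Fin N) : Pd d i = true ↔ dotInt leechU'.1 (R.vec i).1 = d := by
  rw [dot_U'_vec]
  exact decide_eq_true_iff

/-- Transitivity on the sets of a given scalar product with the base point. -/
theorem orbit_trans {D b : ℕ} {d : ℤ} (hc : allBelow (fun j => bcond (Pd d j) (tb D j) true) N = true)
    (ht : (LF b D).treeOK N = true) {y y' : LL} (hy : y ∈ XD leechV (-16)) (hy' : y' ∈ XD leechV (-16))
    (h1 : dotInt leechU'.1 y.1 = d) (h2 : dotInt leechU'.1 y'.1 = d) : ∃ g : ↥Spor.HS, g.1 y = y' := by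
  rw [XD_base] at hy hy'
  obtain ⟨i, rfl⟩ := hy
  obtain ⟨j, rfl⟩ := hy'
  have d1 := (allBelow_iff _ _).1 hc i i.isLt
  have d2 := (allBelow_iff _ _).1 hc j j.isLt
  rw [(Pd_iff d i).2 h1, bcond_true] at d1
  rw [(Pd_iff d j).2 h2, bcond_true] at d2
  obtain ⟨g, _, e⟩ := TabUse.trans_of_treeOK R2 (le_refl _) (gensF b D) ht (L := LF b D) (i := i) (j := j) d1 d2
  exact ⟨g, e⟩

theorem exists_rep {d : ℤ} (h : 0 < countBelow (Pd d) N) : ∃ y ∈ XD leechV (-16), dotInt leechU'.1 y.1 = d := by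
  rw [countBelow_eq, Finset.card_pos] at h
  obtain ⟨i, hi⟩ := h
  obtain ⟨h1, h2⟩ := Finset.mem_filter.1 hi
  have hlt : i < N := Finset.mem_range.1 h1
  refine ⟨R.vec ⟨i, hlt⟩, by rw [XD_base]; exact ⟨_, rfl⟩, ?_⟩
  exact (Pd_iff d ⟨i, hlt⟩).1 h2

theorem ncard_base (d : ℤ) : {y : LL | y ∈ XD leechV (-16) ∧ dotInt leechU'.1 y.1 = d}.ncard = countBelow (Pd d) N := by
  rw [← TabUse.ncard_filter R]
  congr 1
  ext y
  constructor
  · rintro ⟨h1, h2⟩
    rw [XD_base] at h1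
    obtain ⟨i, rfl⟩ := h1
    exact ⟨i, (Pd_iff d i).2 h2, rfl⟩
  · rintro ⟨i, hi, rfl⟩
    exact ⟨by rw [XD_base]; exact ⟨_, rfl⟩, (Pd_iff d i).1 hi⟩

/-- All vectors are in one of the sets. -/
theorem cases_base {y : LL} (hy : y ∈ XD leechV (-16)) : y = leechU' ∨ dotInt leechU'.1 y.1 = 16 ∨ dotInt leechU'.1 y.1 = 8 ∨
    dotInt leechU'.1 y.1 = 0 ∨ dotInt leechU'.1 y.1 = -8 := by
  rw [XD_base] at hy
  obtain ⟨i, rfl⟩ := hy
  have h := (allBelow_iff _ _).1 chkAll i i.isLt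
  simp only [Bool.or_eq_true] at h
  rcases h with h | h | h | h | h
  · left
    rw [← U'_eq]
    congr 1
    exact Fin.ext (Nat.eq_of_beq_eq_true h)
  · exact Or.inr (Or.inl ((Pd_iff _ i).1 h))
  · exact Or.inr (Or.inr (Or.inl ((Pd_iff _ i).1 h)))
  · exact Or.inr (Or.inr (Or.inr (Or.inl ((Pd_iff _ i).1 h))))
  · exact Or.inr (Or.inr (Or.inr (Or.inr ((Pd_iff _ i).1 h))))

/-- The rank five statement. -/
theorem S1641_aux (u x : LL) (hu : sqNorm u.1 = 48) (hx : x ∈ XD u (-16)) :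
    ∃ y₁ ∈ XD u (-16), ∃ y₂ ∈ XD u (-16), ∃ y₃ ∈ XD u (-16), ∃ y₄ ∈ XD u (-16),
      (MulAction.orbit ↥(MulAction.stabilizer ↥Co0 u ⊓ MulAction.stabilizer ↥Co0 x) y₁).ncard = 352 ∧
      (MulAction.orbit ↥(MulAction.stabilizer ↥Co0 u ⊓ MulAction.stabilizer ↥Co0 x) y₂).ncard = 1100 ∧
      (MulAction.orbit ↥(MulAction.stabilizer ↥Co0 u ⊓ MulAction.stabilizer ↥Co0 x) y₃).ncard = 4125 ∧
      (MulAction.orbit ↥(MulAction.stabilizer ↥Co0 u ⊓ MulAction.stabilizer ↥Co0 x) y₄).ncard = 5600 ∧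
      XD u (-16) = {x} ∪ MulAction.orbit ↥(MulAction.stabilizer ↥Co0 u ⊓ MulAction.stabilizer ↥Co0 x) y₁ ∪
        MulAction.orbit ↥(MulAction.stabilizer ↥Co0 u ⊓ MulAction.stabilizer ↥Co0 x) y₂ ∪
        MulAction.orbit ↥(MulAction.stabilizer ↥Co0 u ⊓ MulAction.stabilizer ↥Co0 x) y₃ ∪
        MulAction.orbit ↥(MulAction.stabilizer ↥Co0 u ⊓ MulAction.stabilizer ↥Co0 x) y₄ := by
  obtain ⟨k, hk, e1, e2⟩ := orb_xd u x hu hx
  have kimg := XD_image hk u (-16)
  rw [e1] at kimg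
  have hmem : ∀ y ∈ XD u (-16), k y ∈ XD leechV (-16) := fun y hy => by
    rw [← kimg]
    exact ⟨y, hy, rfl⟩
  have hdot : ∀ y : LL, dotInt x.1 y.1 = dotInt leechU'.1 (k y).1 := fun y => by
    rw [← e2, dot_inv hk]
  have key : ∀ (b D : ℕ) (d : ℤ), allBelow (fun j => bcond (Pd d j) (tb D j) true) N = true → (LF b D).treeOK N = true →
      0 < countBelow (Pd d) N → ∃ y ∈ XD u (-16),
      MulAction.orbit ↥(MulAction.stabilizer ↥Co0 u ⊓ MulAction.stabilizer ↥Co0 x) y = {z : LL | z ∈ XD u (-16) ∧ dotInt x.1 z.1 = d} ∧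
      {z : LL | z ∈ XD u (-16) ∧ dotInt x.1 z.1 = d}.ncard = countBelow (Pd d) N := by
    intro b D d hc ht hpos
    obtain ⟨r, hr1, hr2⟩ := exists_rep hpos
    have hkr : k (k⁻¹ r) = r := by simp
    have hrm : k⁻¹ r ∈ XD u (-16) := by
      rw [← kimg] at hr1
      obtain ⟨z, hz, rfl⟩ := hr1
      simpa using hz
    refine ⟨k⁻¹ r, hrm, ?_, ?_⟩
    · apply orbit_eq_of
      · refine ⟨hrm, ?_⟩
        rw [hdot, hkr]
        exact hr2
      · rintro a ⟨ha1, ha2⟩ z ⟨⟨h1, h2⟩, h4⟩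
        have ha1' : a.1 u = u := ha1
        have ha2' : a.1 x = x := ha2
        refine ⟨⟨(a.2.2 z).trans h1, ?_⟩, ?_⟩
        · show dotInt u.1 (a.1 z).1 = -16
          rw [← dot_inv a.2 u z, ha1'] at h2
          exact h2
        · show dotInt x.1 (a.1 z).1 = d
          rw [← dot_inv a.2 x z, ha2'] at h4
          exact h4
      · rintro z ⟨hz1, hz2⟩
        have hz3 := hmem z hz1
        rw [hdot] at hz2
        obtain ⟨g, e⟩ := orbit_trans hc ht hr1 hz3 hr2 hz2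
        refine ⟨⟨k⁻¹ * g.1 * k, mul_mem (mul_mem (inv_mem hk) g.2.1.1) hk⟩, ⟨?_, ?_⟩, ?_⟩
        · show k⁻¹ (g.1 (k u)) = u
          rw [e1, show g.1 leechV = leechV from g.2.1.2, ← e1]
          simp
        · show k⁻¹ (g.1 (k x)) = x
          rw [e2, show g.1 leechU' = leechU' from g.2.2, ← e2]
          simp
        · show k⁻¹ (g.1 (k (k⁻¹ r))) = z
          rw [hkr, e]
          simp
    · rw [← ncard_base d, ← Set.ncard_image_of_injective _ k.injective]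
      congr 1
      ext y
      constructor
      · rintro ⟨z, ⟨h1, h2⟩, rfl⟩
        refine ⟨hmem z h1, ?_⟩
        rw [← hdot]
        exact h2
      · rintro ⟨h1, h2⟩
        rw [← kimg] at h1
        obtain ⟨z, hz, rfl⟩ := h1
        refine ⟨z, ⟨hz, ?_⟩, rfl⟩
        rw [hdot]
        exact h2
  obtain ⟨y₁, m1, o1, c1⟩ := key 0 maskF3 (-8) chk3 tree3 (by rw [cnt3]; norm_num)
  obtain ⟨y₂, m2, o2, c2⟩ := key 4640 maskF0 16 chk0 tree0 (by rw [cnt0]; norm_num)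
  obtain ⟨y₃, m3, o3, c3⟩ := key 1 maskF2 0 chk2 tree2 (by rw [cnt2]; norm_num)
  obtain ⟨y₄, m4, o4, c4⟩ := key 516 maskF1 8 chk1 tree1 (by rw [cnt1]; norm_num)
  refine ⟨y₁, m1, y₂, m2, y₃, m3, y₄, m4, ?_, ?_, ?_, ?_, ?_⟩
  · rw [o1, c1, cnt3]
  · rw [o2, c2, cnt0]
  · rw [o3, c3, cnt2]
  · rw [o4, c4, cnt1]
  · rw [o1, o2, o3, o4]
    ext y
    constructor
    · intro hy
      have h1 := cases_base (hmem y hy)
      simp only [Set.mem_union, Set.mem_singleton_iff, Set.mem_setOf_eq]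
      rw [hdot y]
      rcases h1 with h | h | h | h | h
      · exact Or.inl (Or.inl (Or.inl (Or.inl (k.injective (h.trans e2.symm)))))
      · exact Or.inl (Or.inl (Or.inr ⟨hy, h⟩))
      · exact Or.inr ⟨hy, h⟩
      · exact Or.inl (Or.inr ⟨hy, h⟩)
      · exact Or.inl (Or.inl (Or.inl (Or.inr ⟨hy, h⟩)))
    · intro hy
      simp only [Set.mem_union, Set.mem_singleton_iff, Set.mem_setOf_eq] at hy
      rcases hy with ((((rfl | h) | h) | h) | h)
      · exact hx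
      · exact h.1
      · exact h.1
      · exact h.1
      · exact h.1

end Cfsg.Agent.Lib.Conway.X11
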