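import Cfsg.Agent.Lib.Conway.X11.Main

/-!
# The table as a representation of the smaller group
-/

set_option autoImplicit false
set_option maxHeartbeats 0

namespace Cfsg.Agent.Lib.Conway.X11

open Cfsg Cfsg.Spor Cfsg.Agent.Lib.Compute Cfsg.Agent.Lib.Golay
open Cfsg.Agent.Lib.KnownSimple Cfsg.Agent.Lib.KnownSimple.PE Cfsg.Agent.Lib.KnownSimple.Leech
open Cfsg.Agent.Lib.Conway

/-- The table as a representation of the smaller group. -/
noncomputable def R2 : LRep Spor.HS N :=
  { R with
    hG := fun _ hg => hg.1.1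
    hfix := fun t ht => by
      obtain ⟨w, h1, h2⟩ := R.hfix t ht
      exact ⟨w, fun g hg => h1 g hg.1, h2⟩ }

theorem vec2 (i : Fin N) : R2.vec i = R.vec i := rfl


end Cfsg.Agent.Lib.Conway.X11
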