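import Cfsg.Agent.Lib.Conway.PGetH
import Cfsg.Agent.Lib.Conway.X11.Data
import Cfsg.Agent.Lib.Conway.X11.Rep0

/-!
# A table of 11178 vectors of the lattice : checks 0
-/

set_option autoImplicit false

namespace Cfsg.Agent.Lib.Conway.X11

open Cfsg Cfsg.Spor Cfsg.Agent.Lib.Compute Cfsg.Agent.Lib.Golay Cfsg.Agent.Lib.KnownSimple.PE
open Cfsg.Agent.Lib.KnownSimple.Leech

theorem shA : allA Pc = true := by decide +kernel

set_option maxRecDepth 100000 in
theorem hB0 : chunk (gB Pc) 64 0 = true := by decide +kernel
set_option maxRecDepth 100000 in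
theorem hB1 : chunk (gB Pc) 64 1 = true := by decide +kernel
set_option maxRecDepth 100000 in
theorem hB2 : chunk (gB Pc) 64 2 = true := by decide +kernel
set_option maxRecDepth 100000 in
theorem hB3 : chunk (gB Pc) 64 3 = true := by decide +kernel
set_option maxRecDepth 100000 in
theorem hB4 : chunk (gB Pc) 64 4 = true := by decide +kernel
set_option maxRecDepth 100000 in
theorem hB5 : chunk (gB Pc) 64 5 = true := by decide +kernel
set_option maxRecDepth 100000 in
theorem hB6 : chunk (gB Pc) 64 6 = true := by decide +kernel
set_option maxRecDepth 100000 in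
theorem hB7 : chunk (gB Pc) 64 7 = true := by decide +kernel
set_option maxRecDepth 100000 in
theorem hB8 : chunk (gB Pc) 64 8 = true := by decide +kernel
set_option maxRecDepth 100000 in
theorem hB9 : chunk (gB Pc) 64 9 = true := by decide +kernel
set_option maxRecDepth 100000 in
theorem hB10 : chunk (gB Pc) 64 10 = true := by decide +kernel
set_option maxRecDepth 100000 in
theorem hB11 : chunk (gB Pc) 64 11 = true := by decide +kernel
set_option maxRecDepth 100000 in
theorem hB12 : chunk (gB Pc) 64 12 = true := by decide +kernel
set_option maxRecDepth 100000 in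
theorem hB13 : chunk (gB Pc) 64 13 = true := by decide +kernel
set_option maxRecDepth 100000 in
theorem hB14 : chunk (gB Pc) 64 14 = true := by decide +kernel
set_option maxRecDepth 100000 in
theorem hB15 : chunk (gB Pc) 64 15 = true := by decide +kernel

end Cfsg.Agent.Lib.Conway.X11
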