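import Cfsg.Agent.Lib.Conway.PGetH
import Cfsg.Agent.Lib.Conway.X11.Data
import Cfsg.Agent.Lib.Conway.X11.Rep0

/-!
# A table of 11178 vectors of the lattice : injectivity
-/

set_option autoImplicit false

namespace Cfsg.Agent.Lib.Conway.X11

open Cfsg Cfsg.Spor Cfsg.Agent.Lib.Compute Cfsg.Agent.Lib.Golay Cfsg.Agent.Lib.KnownSimple.PE
open Cfsg.Agent.Lib.KnownSimple.Leech

/-- The test of the search in the table. -/
noncomputable def gInj (i : ℕ) : Bool := Nat.beq (find tab N (pack (vecZ tab i))) i

set_option maxRecDepth 100000 in
theorem cInj0 : chunk gInj 486 0 = true := by decide +kernel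
set_option maxRecDepth 100000 in
theorem cInj1 : chunk gInj 486 1 = true := by decide +kernel
set_option maxRecDepth 100000 in
theorem cInj2 : chunk gInj 486 2 = true := by decide +kernel
set_option maxRecDepth 100000 in
theorem cInj3 : chunk gInj 486 3 = true := by decide +kernel
set_option maxRecDepth 100000 in
theorem cInj4 : chunk gInj 486 4 = true := by decide +kernel
set_option maxRecDepth 100000 in
theorem cInj5 : chunk gInj 486 5 = true := by decide +kernel
set_option maxRecDepth 100000 in
theorem cInj6 : chunk gInj 486 6 = true := by decide +kernel
set_option maxRecDepth 100000 in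
theorem cInj7 : chunk gInj 486 7 = true := by decide +kernel
set_option maxRecDepth 100000 in
theorem cInj8 : chunk gInj 486 8 = true := by decide +kernel
set_option maxRecDepth 100000 in
theorem cInj9 : chunk gInj 486 9 = true := by decide +kernel
set_option maxRecDepth 100000 in
theorem cInj10 : chunk gInj 486 10 = true := by decide +kernel
set_option maxRecDepth 100000 in
theorem cInj11 : chunk gInj 486 11 = true := by decide +kernel
set_option maxRecDepth 100000 in
theorem cInj12 : chunk gInj 486 12 = true := by decide +kernel
set_option maxRecDepth 100000 in
theorem cInj13 : chunk gInj 486 13 = true := by decide +kernel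
set_option maxRecDepth 100000 in
theorem cInj14 : chunk gInj 486 14 = true := by decide +kernel
set_option maxRecDepth 100000 in
theorem cInj15 : chunk gInj 486 15 = true := by decide +kernel
set_option maxRecDepth 100000 in
theorem cInj16 : chunk gInj 486 16 = true := by decide +kernel
set_option maxRecDepth 100000 in
theorem cInj17 : chunk gInj 486 17 = true := by decide +kernel
set_option maxRecDepth 100000 in
theorem cInj18 : chunk gInj 486 18 = true := by decide +kernel
set_option maxRecDepth 100000 in
theorem cInj19 : chunk gInj 486 19 = true := by decide +kernel
set_option maxRecDepth 100000 in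
theorem cInj20 : chunk gInj 486 20 = true := by decide +kernel
set_option maxRecDepth 100000 in
theorem cInj21 : chunk gInj 486 21 = true := by decide +kernel
set_option maxRecDepth 100000 in
theorem cInj22 : chunk gInj 486 22 = true := by decide +kernel

theorem hinj' : allBelow (fun i => Nat.beq (find tab N (pack (vecZ tab i))) i) N = true := by
  have h : allBelow gInj (23 * 486) = true := allBelow_of_chunks (fun c hc => by
    interval_cases c
    · exact cInj0
    · exact cInj1
    · exact cInj2
    · exact cInj3
    · exact cInj4
    · exact cInj5
    · exact cInj6
    · exact cInj7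
    · exact cInj8
    · exact cInj9
    · exact cInj10
    · exact cInj11
    · exact cInj12
    · exact cInj13
    · exact cInj14
    · exact cInj15
    · exact cInj16
    · exact cInj17
    · exact cInj18
    · exact cInj19
    · exact cInj20
    · exact cInj21
    · exact cInj22
  )
  exact h

end Cfsg.Agent.Lib.Conway.X11
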