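import Cfsg.Agent.Lib.Conway.PGetH
import Cfsg.Agent.Lib.Conway.X11.Data
import Cfsg.Agent.Lib.Conway.X11.Rep0

/-!
# A table of 11178 vectors of the lattice : norms
-/

set_option autoImplicit false

namespace Cfsg.Agent.Lib.Conway.X11

open Cfsg Cfsg.Spor Cfsg.Agent.Lib.Compute Cfsg.Agent.Lib.Golay Cfsg.Agent.Lib.KnownSimple.PE
open Cfsg.Agent.Lib.KnownSimple.Leech

/-- The test of the norms. -/
noncomputable def gNorm (i : ℕ) : Bool := decide (dotZ tab i i = 32) && testsOK tests (vecZ tab i)

set_option maxRecDepth 100000 in
theorem cNorm0 : chunk gNorm 486 0 = true := by decide +kernel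
set_option maxRecDepth 100000 in
theorem cNorm1 : chunk gNorm 486 1 = true := by decide +kernel
set_option maxRecDepth 100000 in
theorem cNorm2 : chunk gNorm 486 2 = true := by decide +kernel
set_option maxRecDepth 100000 in
theorem cNorm3 : chunk gNorm 486 3 = true := by decide +kernel
set_option maxRecDepth 100000 in
theorem cNorm4 : chunk gNorm 486 4 = true := by decide +kernel
set_option maxRecDepth 100000 in
theorem cNorm5 : chunk gNorm 486 5 = true := by decide +kernel
set_option maxRecDepth 100000 in
theorem cNorm6 : chunk gNorm 486 6 = true := by decide +kernel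
set_option maxRecDepth 100000 in
theorem cNorm7 : chunk gNorm 486 7 = true := by decide +kernel
set_option maxRecDepth 100000 in
theorem cNorm8 : chunk gNorm 486 8 = true := by decide +kernel
set_option maxRecDepth 100000 in
theorem cNorm9 : chunk gNorm 486 9 = true := by decide +kernel
set_option maxRecDepth 100000 in
theorem cNorm10 : chunk gNorm 486 10 = true := by decide +kernel
set_option maxRecDepth 100000 in
theorem cNorm11 : chunk gNorm 486 11 = true := by decide +kernel
set_option maxRecDepth 100000 in
theorem cNorm12 : chunk gNorm 486 12 = true := by decide +kernel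
set_option maxRecDepth 100000 in
theorem cNorm13 : chunk gNorm 486 13 = true := by decide +kernel
set_option maxRecDepth 100000 in
theorem cNorm14 : chunk gNorm 486 14 = true := by decide +kernel
set_option maxRecDepth 100000 in
theorem cNorm15 : chunk gNorm 486 15 = true := by decide +kernel
set_option maxRecDepth 100000 in
theorem cNorm16 : chunk gNorm 486 16 = true := by decide +kernel
set_option maxRecDepth 100000 in
theorem cNorm17 : chunk gNorm 486 17 = true := by decide +kernel
set_option maxRecDepth 100000 in
theorem cNorm18 : chunk gNorm 486 18 = true := by decide +kernel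
set_option maxRecDepth 100000 in
theorem cNorm19 : chunk gNorm 486 19 = true := by decide +kernel
set_option maxRecDepth 100000 in
theorem cNorm20 : chunk gNorm 486 20 = true := by decide +kernel
set_option maxRecDepth 100000 in
theorem cNorm21 : chunk gNorm 486 21 = true := by decide +kernel
set_option maxRecDepth 100000 in
theorem cNorm22 : chunk gNorm 486 22 = true := by decide +kernel

theorem hnorm' : allBelow (fun i => decide (dotZ tab i i = 32) && testsOK tests (vecZ tab i)) N = true := by
  have h : allBelow gNorm (23 * 486) = true := allBelow_of_chunks (fun c hc => by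
    interval_cases c
    · exact cNorm0
    · exact cNorm1
    · exact cNorm2
    · exact cNorm3
    · exact cNorm4
    · exact cNorm5
    · exact cNorm6
    · exact cNorm7
    · exact cNorm8
    · exact cNorm9
    · exact cNorm10
    · exact cNorm11
    · exact cNorm12
    · exact cNorm13
    · exact cNorm14
    · exact cNorm15
    · exact cNorm16
    · exact cNorm17
    · exact cNorm18
    · exact cNorm19
    · exact cNorm20
    · exact cNorm21
    · exact cNorm22
  )
  exact h

end Cfsg.Agent.Lib.Conway.X11
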