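import Cfsg.Agent.Lib.Conway.PGetH
import Cfsg.Agent.Lib.Conway.X11.Data
import Cfsg.Agent.Lib.Conway.X11.Rep0

/-!
# A table of 11178 vectors of the lattice : membership in the lattice
-/

set_option autoImplicit false

namespace Cfsg.Agent.Lib.Conway.X11

open Cfsg Cfsg.Spor Cfsg.Agent.Lib.Compute Cfsg.Agent.Lib.Golay Cfsg.Agent.Lib.KnownSimple.PE
open Cfsg.Agent.Lib.KnownSimple.Leech

/-- The test of membership in the lattice. -/
noncomputable def gMem (i : ℕ) : Bool := chkL (vecZ tab i)

set_option maxRecDepth 100000 in
theorem cMem0 : chunk gMem 486 0 = true := by decide +kernel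
set_option maxRecDepth 100000 in
theorem cMem1 : chunk gMem 486 1 = true := by decide +kernel
set_option maxRecDepth 100000 in
theorem cMem2 : chunk gMem 486 2 = true := by decide +kernel
set_option maxRecDepth 100000 in
theorem cMem3 : chunk gMem 486 3 = true := by decide +kernel
set_option maxRecDepth 100000 in
theorem cMem4 : chunk gMem 486 4 = true := by decide +kernel
set_option maxRecDepth 100000 in
theorem cMem5 : chunk gMem 486 5 = true := by decide +kernel
set_option maxRecDepth 100000 in
theorem cMem6 : chunk gMem 486 6 = true := by decide +kernel
set_option maxRecDepth 100000 in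
theorem cMem7 : chunk gMem 486 7 = true := by decide +kernel
set_option maxRecDepth 100000 in
theorem cMem8 : chunk gMem 486 8 = true := by decide +kernel
set_option maxRecDepth 100000 in
theorem cMem9 : chunk gMem 486 9 = true := by decide +kernel
set_option maxRecDepth 100000 in
theorem cMem10 : chunk gMem 486 10 = true := by decide +kernel
set_option maxRecDepth 100000 in
theorem cMem11 : chunk gMem 486 11 = true := by decide +kernel
set_option maxRecDepth 100000 in
theorem cMem12 : chunk gMem 486 12 = true := by decide +kernel
set_option maxRecDepth 100000 in
theorem cMem13 : chunk gMem 486 13 = true := by decide +kernel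
set_option maxRecDepth 100000 in
theorem cMem14 : chunk gMem 486 14 = true := by decide +kernel
set_option maxRecDepth 100000 in
theorem cMem15 : chunk gMem 486 15 = true := by decide +kernel
set_option maxRecDepth 100000 in
theorem cMem16 : chunk gMem 486 16 = true := by decide +kernel
set_option maxRecDepth 100000 in
theorem cMem17 : chunk gMem 486 17 = true := by decide +kernel
set_option maxRecDepth 100000 in
theorem cMem18 : chunk gMem 486 18 = true := by decide +kernel
set_option maxRecDepth 100000 in
theorem cMem19 : chunk gMem 486 19 = true := by decide +kernel
set_option maxRecDepth 100000 in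
theorem cMem20 : chunk gMem 486 20 = true := by decide +kernel
set_option maxRecDepth 100000 in
theorem cMem21 : chunk gMem 486 21 = true := by decide +kernel
set_option maxRecDepth 100000 in
theorem cMem22 : chunk gMem 486 22 = true := by decide +kernel

theorem hmem' : allBelow (fun i => chkL (vecZ tab i)) N = true := by
  have h : allBelow gMem (23 * 486) = true := allBelow_of_chunks (fun c hc => by
    interval_cases c
    · exact cMem0
    · exact cMem1
    · exact cMem2
    · exact cMem3
    · exact cMem4
    · exact cMem5
    · exact cMem6
    · exact cMem7
    · exact cMem8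
    · exact cMem9
    · exact cMem10
    · exact cMem11
    · exact cMem12
    · exact cMem13
    · exact cMem14
    · exact cMem15
    · exact cMem16
    · exact cMem17
    · exact cMem18
    · exact cMem19
    · exact cMem20
    · exact cMem21
    · exact cMem22
  )
  exact h

end Cfsg.Agent.Lib.Conway.X11
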