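import Cfsg.Agent.Lib.Conway.PGetH
import Cfsg.Agent.Lib.Conway.X11.Data
import Cfsg.Agent.Lib.Conway.X11.RepB0
import Cfsg.Agent.Lib.Conway.X11.RepB1
import Cfsg.Agent.Lib.Conway.X11.RepB2
import Cfsg.Agent.Lib.Conway.X11.RepB3
import Cfsg.Agent.Lib.Conway.X11.RepC
import Cfsg.Agent.Lib.Conway.X11.RepT
import Cfsg.Agent.Lib.Conway.X11.RepN
import Cfsg.Agent.Lib.Conway.X11.RepI

/-!
# A table of 11178 vectors of the lattice
-/

set_option autoImplicit false

namespace Cfsg.Agent.Lib.Conway.X11

open Cfsg Cfsg.Spor Cfsg.Agent.Lib.Compute Cfsg.Agent.Lib.Golay Cfsg.Agent.Lib.KnownSimple.PE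
open Cfsg.Agent.Lib.KnownSimple.Leech

theorem shB : allB Pc = true := by
  have h : allBelow (gB Pc) (64 * 64) = true := allBelow_of_chunks (fun c hc => by
    interval_cases c
    · exact hB0
    · exact hB1
    · exact hB2
    · exact hB3
    · exact hB4
    · exact hB5
    · exact hB6
    · exact hB7
    · exact hB8
    · exact hB9
    · exact hB10
    · exact hB11
    · exact hB12
    · exact hB13
    · exact hB14
    · exact hB15
    · exact hB16
    · exact hB17
    · exact hB18
    · exact hB19
    · exact hB20
    · exact hB21
    · exact hB22
    · exact hB23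
    · exact hB24
    · exact hB25
    · exact hB26
    · exact hB27
    · exact hB28
    · exact hB29
    · exact hB30
    · exact hB31
    · exact hB32
    · exact hB33
    · exact hB34
    · exact hB35
    · exact hB36
    · exact hB37
    · exact hB38
    · exact hB39
    · exact hB40
    · exact hB41
    · exact hB42
    · exact hB43
    · exact hB44
    · exact hB45
    · exact hB46
    · exact hB47
    · exact hB48
    · exact hB49
    · exact hB50
    · exact hB51
    · exact hB52
    · exact hB53
    · exact hB54
    · exact hB55
    · exact hB56
    · exact hB57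
    · exact hB58
    · exact hB59
    · exact hB60
    · exact hB61
    · exact hB62
    · exact hB63)
  exact h

theorem shC : allC Pc = true := by
  have h : allBelow (gC Pc) (16 * 256) = true := allBelow_of_chunks (fun c hc => by
    interval_cases c
    · exact hC0
    · exact hC1
    · exact hC2
    · exact hC3
    · exact hC4
    · exact hC5
    · exact hC6
    · exact hC7
    · exact hC8
    · exact hC9
    · exact hC10
    · exact hC11
    · exact hC12
    · exact hC13
    · exact hC14
    · exact hC15)
  exact h

/-- The representation. -/
noncomputable def R : LRep Spor.Co3 N where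
  tab := tab
  tests := tests
  hG := fun _ hg => hg.1
  hfix := fun t ht => by
    simp only [tests, List.mem_cons, List.not_mem_nil, or_false] at ht
    rcases ht with rfl
    exact ⟨leechV, fun g hg => hg.2, rowV_pt⟩
  hcols := by decide +kernel
  hmem := hmem'
  hnorm := hnorm'
  hinj := hinj'
  hA := shA
  hB := shB
  hC := shC

end Cfsg.Agent.Lib.Conway.X11
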